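import Mathlib
import Cfsg.Agent.Lib.Fusion.GroupSimple
import Cfsg.Agent.Lib.RGD.Coef
import Cfsg.Agent.Lib.ClSys.StApp
import Cfsg.Agent.Lib.ClSys.Sp

/-!
Simplicity of the fusion system in the defining characteristic of an untwisted group of Lie type of rank
at least two.
-/

set_option autoImplicit false

namespace CfsgLib.Fusion

open Cfsg Cfsg.FusionSystem Subgroup CfsgLib.RGD CfsgLib.RGD.StSys
open scoped commutatorElement

section

variable {ι κ : Type} [Fintype κ] [DecidableEq κ] {Φ : RootSys ι κ} {F G : Type*} [Field F] [Group G]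

/-- Every subgroup that contains the commutators of positive root elements and whose set of positive root
subgroups is stable under the Weyl group contains the fundamental root subgroups. -/
def RootFull (S : StSys Φ F G) : Prop :=
  ∀ M : Subgroup G, (∀ r s, Φ.Pos r → Φ.Pos s → ∀ t u, ⁅S.x r t, S.x s u⁆ ∈ M) →
    (∀ w ∈ Φ.W, ∀ r, Φ.Pos r → Φ.Pos (w r) → (∀ t, S.x r t ∈ M) → ∀ t, S.x (w r) t ∈ M) →
    ∀ i t, S.x (Φ.simple i) t ∈ M

theorem RootFull.map {G₀ : Type*} [Group G₀] {S : StSys Φ F G} {S₀ : StSys Φ F G₀} (θ : G →* G₀)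
    (hθ : ∀ r t, θ (S.x r t) = S₀.x r t) (h : RootFull S) : RootFull S₀ := fun M h1 h2 i t => by
  have e : ∀ r t, S.x r t ∈ M.comap θ ↔ S₀.x r t ∈ M := fun r t => by rw [mem_comap, hθ]
  refine (e _ _).1 (h (M.comap θ) (fun r s hr hs t u => ?_) (fun w hw r hr hw' H t =>
    (e _ _).2 (h2 w hw r hr hw' (fun t => (e _ _).1 (H t)) t)) i t)
  rw [mem_comap, map_commutatorElement, hθ, hθ]
  exact h1 r s hr hs t u

theorem RootFull.of_injective {G₀ : Type*} [Group G₀] {S : StSys Φ F G} {S₀ : StSys Φ F G₀} (θ : G →* G₀)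
    (hi : Function.Injective θ) (hθ : ∀ r t, θ (S.x r t) = S₀.x r t) (h : RootFull S₀) : RootFull S :=
  fun M h1 h2 i t => by
  have e : ∀ r t, S₀.x r t ∈ M.map θ ↔ S.x r t ∈ M := fun r t => by rw [← hθ, mem_map_iff_mem hi]
  refine (e _ _).1 (h (M.map θ) (fun r s hr hs t u => ?_) (fun w hw r hr hw' H t =>
    (e _ _).2 (h2 w hw r hr hw' (fun t => (e _ _).1 (H t)) t)) i t)
  rw [← hθ, ← hθ, ← map_commutatorElement]
  exact mem_map_of_mem θ (h1 r s hr hs t u)

variable [Finite ι] [Finite F] [Finite G] {S : StSys Φ F G} {p : ℕ} [Fact p.Prime] [CharP F p]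

omit [Finite ι] in
theorem inSub_singleton_iff {i : κ} {r : ι} (hr : Φ.Pos r) : Φ.InSub {i} r ↔ r = Φ.simple i := by
  have := Set.ext_iff.1 (pos_diff_simple_eq (Φ := Φ) i) r
  simp only [Set.mem_sdiff, Set.mem_ofPred_eq, hr, true_and, Set.mem_singleton_iff] at this
  exact not_iff_not.1 this.symm

theorem lie_parData (hS : S.Nondeg) (htop : S.grp = ⊤) (h3 : Stein.R3 S) :
    ParData p S.U (fun i => S.P {i}) fun i => S.UJ {i} := by
  have hB : Subgroup.normalizer (S.U : Set G) = S.B := by rw [← hS.normalizer_U, htop, inf_top_eq]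
  refine ⟨sylIn_of_not_dvd le_top (St.isPGroup_U hS p) ?_, fun i => S.UJ_le_U _, fun i => hB ▸ B_le_P _,
    fun i => (hS.normalizer_UJ {i}).ge.trans inf_le_left, fun i K h1 h2 h4 => ?_, fun i T hT hn x hx =>
      hS.mem_UJ_of_conj (hT hx) fun n hn' => hT ?_⟩
  · rw [relIndex_top_right]
    exact St.not_dvd_index_U hS htop p (ClSys.not_dvd_card_H_of_r3 h3 p)
  · rw [hB] at h1 h4
    obtain ⟨k, hk, hkB⟩ := SetLike.not_le_iff_exists.1 h4
    have h5 : k ∈ (S.P {i} : Set G) := h2 hk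
    rw [hS.coe_P_singleton] at h5
    obtain ⟨a, ha, b, hb, rfl⟩ := DoubleCoset.mem_doubleCoset.1 (h5.resolve_left hkB)
    have := (Subgroup.mul_mem_cancel_left _ (h1 ha)).1 ((Subgroup.mul_mem_cancel_right _ (h1 hb)).1 hk)
    refine sup_le h1 ((closure_le _).2 ?_)
    rintro _ ⟨j, rfl, rfl⟩
    exact this
  · simpa using conj_mem_of_mem_normalizer (hn (Subgroup.inv_mem _ (NJ_le_P _ hn'))) hx

/-- The fusion system in the defining characteristic is simple. -/
theorem lie_simple (hS : S.Nondeg) (htop : S.grp = ⊤) (h3 : Stein.R3 S)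
    (conn : ∀ J : Set κ, J.Nonempty → Jᶜ.Nonempty → ∃ i ∈ J, ∃ j ∉ J, Φ.A i j ≠ 0) [Nontrivial κ]
    (full : RootFull S) (T : Sylow p G) : (groupFusionSystem (T : Subgroup G)).IsSimple p := by
  have h := lie_parData (p := p) hS htop h3
  have hB : Subgroup.normalizer (S.U : Set G) = S.B := by rw [← hS.normalizer_U, htop, inf_top_eq]
  have hn : ∀ i, S.n (Φ.simple i) 1 ∈ S.P {i} := fun i => mem_sup_right (Subgroup.subset_closure ⟨i, rfl, rfl⟩)
  have hx : ∀ {i r}, Φ.Pos r → r ≠ Φ.simple i → ∀ t, S.x r t ∈ S.UJ {i} := fun hr h t =>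
    S.x_mem_UU (Ψ := {r | Φ.Pos r ∧ ¬ Φ.InSub {_} r}) ⟨hr, fun H => h ((inSub_singleton_iff hr).1 H)⟩ t
  refine group_simple_sylow h.syl (h.simple (fun H => ?_) (fun T hT hn => ?_) (fun J h1 h2 => ?_)
    (fun i => exists_ne i) (fun M h1 h2 _ h4 => ?_) ?_) T
  · obtain ⟨i⟩ : Nonempty κ := inferInstance
    have := S.x_mem_U (Φ.pos_simple i) 1
    rw [H, mem_bot, ← S.x_zero (Φ.simple i)] at this
    exact one_ne_zero (hS.x_injective _ this)
  · have : S.grp ≤ Subgroup.normalizer (T : Set G) := by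
      obtain ⟨i⟩ : Nonempty κ := inferInstance
      rw [← P_univ]
      refine sup_le ((B_le_P _).trans (hn i)) ((closure_le _).2 ?_)
      rintro _ ⟨j, -, rfl⟩
      exact hn j (mem_sup_right (Subgroup.subset_closure ⟨j, rfl, rfl⟩))
    exact eq_bot_iff.2 fun a ha => hS.eq_one_of_mem_U_of_mem_H (hT ha)
      (hS.mem_H_of_conj_mem_B fun g hg => S.U_le_B (hT (conj_mem_of_mem_normalizer (this hg) ha)))
  · obtain ⟨i, hi, j, hj, hA⟩ := conn J h1 h2
    have hij : Φ.simple j ≠ Φ.simple i := fun e => hj (Φ.simple_injective e ▸ hi)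
    have hp := Φ.pos_s (Φ.pos_simple j) hij
    refine ⟨i, hi, j, hj, fun H => ?_⟩
    obtain ⟨l, hl, e⟩ := (S.acts_n_simple i one_ne_zero).exists_conj_x (Φ.s i (Φ.simple j))
    have h5 := conj_mem_of_mem_normalizer (H (hn i)) (show S.x (Φ.s i (Φ.simple j)) 1 ∈ S.UJ {j} ⊓ S.UJ {i} from
      ⟨hx hp (fun e => hA (by
        have := Φ.rt_s i (Φ.simple j) i
        rw [e, if_pos rfl, Φ.wt_simple] at this
        omega)) 1, hx hp (Φ.s_ne_simple (Φ.pos_simple j)) 1⟩)
    rw [e, Φ.s_s] at h5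
    exact (hS.mem_of_x_mem_UU (closed_UJ _) (fun _ h => h.1) (mul_ne_zero hl one_ne_zero) h5.1).2
      ((inSub_singleton_iff (Φ.pos_simple j)).2 rfl)
  · have mv : ∀ w ∈ Φ.W, ∀ r, Φ.Pos r → Φ.Pos (w r) → (∀ t, S.x r t ∈ M) → ∀ t, S.x (w r) t ∈ M := by
      intro w hw
      refine Φ.W_induction_left (p := fun w => ∀ r, Φ.Pos r → Φ.Pos (w r) → (∀ t, S.x r t ∈ M) →
        ∀ t, S.x (w r) t ∈ M) (fun r _ _ H => H) (fun v hv i hi ih r hr hp H t => ?_) hw
      rw [Equiv.Perm.mul_apply] at hp ⊢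
      have hv' : Φ.Pos (v r) := (Φ.pos_or_neg _).resolve_right fun hneg => by
        have := Φ.eq_simple_of_neg_s hp (by rwa [Φ.s_s])
        have h6 : v r = Φ.neg (Φ.simple i) := by rw [← Φ.s_s i (v r), this, Φ.s_simple]
        refine Φ.ne_neg_of_pos hi hr ?_
        rw [← Φ.apply_neg (Subgroup.inv_mem _ hv), ← h6]
        simp
      have hne : v r ≠ Φ.simple i := fun e => Φ.not_pos_of_neg (Φ.neg_neg_simple i) (by rwa [e, Φ.s_simple] at hp)
      obtain ⟨l, hl, e⟩ := (S.acts_n_simple i one_ne_zero).exists_conj_x (v r)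
      have := conj_mem_of_mem_normalizer (h4 i (hn i)) (show S.x (v r) (l⁻¹ * t) ∈ M ⊓ S.UJ {i} from
        ⟨ih r hr hv' H _, hx hv' hne _⟩)
      rw [e, mul_inv_cancel_left₀ hl] at this
      exact this.1
    have := full M (fun r s hr hs t u => h1 (commutator_mem_commutator (S.x_mem_U hr t) (S.x_mem_U hs u))) mv
    refine S.UU_le_iff.2 fun r hr t => ?_
    obtain ⟨w, hw, i, rfl⟩ := Φ.exists_eq_apply_simple r
    exact mv w hw _ (Φ.pos_simple i) hr (this i) t
  · rw [hB]
    refine sup_le (le_sup_of_le_left le_sup_left) (le_sup_of_le_right ?_)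
    rw [Stein.H_eq_Hs, Stein.Hs, closure_le]
    rintro _ ⟨i, c, hc, rfl⟩
    refine mem_iSup_of_mem i ⟨S.H_le_B (S.h_mem_H _ hc), ?_⟩
    have key : ∀ r, Φ.InSub {i} r → ∀ t, S.x r t ∈ pGen p (S.P {i}) := fun r hr t =>
      Subgroup.subset_closure ⟨x_mem_P hr t, by
        refine (orderOf_dvd_iff_pow_eq_one (n := p ^ 1)).2 ?_ |> (Nat.dvd_prime_pow Fact.out).1 |>.imp
          fun k hk => hk.2
        have : ∀ k : ℕ, S.x r t ^ k = S.x r (k * t) := fun k => by
          induction k with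
          | zero => simp [S.x_zero]
          | succ k ih => rw [pow_succ, ih, ← S.x_add]; push_cast; ring_nf
        rw [pow_one, this, CharP.cast_eq_zero, zero_mul, S.x_zero]⟩
    have h1 := (inSub_singleton_iff (Φ.pos_simple i)).2 rfl
    have h2 := Φ.inSub_neg_iff.2 h1
    exact mul_mem (mul_mem (mul_mem (key _ h1 _) (key _ h2 _)) (key _ h1 _))
      (mul_mem (mul_mem (key _ h1 _) (key _ h2 _)) (key _ h1 _))

end

open ClSys

variable {F : Type*} [Field F]

theorem rootFull_sl {n : ℕ} (hn : 3 ≤ n) : RootFull (slSys n F) := fun M h1 h2 i t => by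
  let a : Fin n := ⟨0, by omega⟩
  let b : Fin n := ⟨1, by omega⟩
  let c : Fin n := ⟨2, by omega⟩
  have hab : a ≠ b := by simp [a, b]
  have hbc : b ≠ c := by simp [c, b]
  have hac : a ≠ c := by simp [a, c]
  let π := Equiv.swap (Equiv.swap a (loA i) c) (hiA i) * Equiv.swap a (loA i)
  have e : permAHom n π ⟨(a, c), hac⟩ = (rootA n).simple i := by
    refine Subtype.ext (Prod.ext ?_ (Equiv.swap_apply_left _ _))
    change Equiv.swap _ _ (Equiv.swap a (loA i) a) = loA i
    rw [Equiv.swap_apply_left, Equiv.swap_apply_of_ne_of_ne _ (loA_ne_hiA i)]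
    exact fun e => hac ((Equiv.swap a (loA i)).injective (by rw [Equiv.swap_apply_left]; exact e))
  rw [← e]
  refine h2 _ (rootA_W ▸ ⟨π, rfl⟩) _ (rootA_pos_iff.2 (by simp [a, c])) (e ▸ (rootA n).pos_simple i)
    (fun t => ?_) t
  have := h1 ⟨(a, b), hab⟩ ⟨(b, c), hbc⟩ (rootA_pos_iff.2 (by simp [a, b])) (rootA_pos_iff.2 (by simp [c, b])) t 1
  rw [slSys_x, slSys_x, Classical.sl_commutator_transvection hab hbc hac, mul_one] at this
  exact this

theorem rootFull_sysC {m : ℕ} {J : Type*} [Fintype J] [DecidableEq J] (ι : II m ↪ J) (hm : 2 ≤ m)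
    (hex : m = 2 → ∀ c : F, ∃ t, t ≠ 0 ∧ t + c ≠ 0) : RootFull (sysC F ι) := fun M h1 h2 => by
  have he : (-1 : F) * -1 = 1 := by ring
  have hf : ∀ a b : II m, flipM (-1 : F) a b ≠ 0 := fun a b => left_ne_zero_of_mul_eq_one (flipM_sq he a b)
  let Q : II m → II m → Prop := fun a b => ∀ (h' : a ≠ b.swap) (t : F), mid ι (-1) a b h' t ∈ M
  have hQ : ∀ {a b : II m} (h : a ≠ b) (h' : a ≠ b.swap),
      Q a b ↔ ∀ t, (sysC F ι).x (.inl (mkM a b h h')) t ∈ M := fun {a b} h h' =>
    ⟨fun H t => by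
      have := H h' ((flipM (-1) a b)⁻¹ * t)
      rwa [mid_eq_xM he h, mul_inv_cancel_left₀ (hf a b)] at this,
    fun H _ t => by rw [mid_eq_xM he h]; exact H _⟩
  have pos : ∀ {a b : II m} (h : a ≠ b) (h' : a ≠ b.swap), key a + key b < 0 →
      (rootC m).Pos (.inl (mkM a b h h')) := fun {a b} h h' H => (rootBC_pos_iff _).2 (by
    have := key_mkM a b h h'
    change key _ + key _ < 0
    omega)
  have mv : ∀ (j : Fin m) {a b c d : II m}, a ≠ b → a ≠ b.swap → (reflBC (simpleBC j)).1 a = c →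
      (reflBC (simpleBC j)).1 b = d → key a + key b < 0 → key c + key d < 0 → Q a b → Q c d := by
    rintro j a b _ _ h h' rfl rfl hp hp' H
    have g := (reflBC (simpleBC j)).1.injective.ne h
    have g' : (reflBC (simpleBC j)).1 a ≠ ((reflBC (simpleBC j)).1 b).swap := by
      rw [← (reflBC (simpleBC j)).2]; exact (reflBC (simpleBC j)).1.injective.ne h'
    have e : (rootC m).s j (.inl (mkM a b h h')) = .inl (mkM _ _ g g') := by
      refine congrArg Sum.inl (evM_injective ?_)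
      rw [evM_permM, evM_mkM]
      unfold mkM
      split_ifs
      · rfl
      · exact add_comm _ _
    exact (hQ g g').2 (e ▸ h2 _ ((rootC m).s_mem_W j) _ (pos h h' hp) (e ▸ pos g g' hp') ((hQ h h').1 H))
  have cm : ∀ {a b : II m} (h : a ≠ b) (h' : a ≠ b.swap), key a + key b < 0 → ∀ r, (rootC m).Pos r → ∀ t u : F,
      ⁅mid ι (-1) a b h' t, (sysC F ι).x r u⁆ ∈ M := fun {a b} h h' H r hr t u => by
    rw [mid_eq_xM he h]
    exact h1 _ _ (pos h h' H) hr _ u
  have sw : ∀ (j : ℕ) (h : j + 1 < m) (a c : II m), key c = (if key a = j - m then (j : ℤ) + 1 - m else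
      if key a = j + 1 - m then (j : ℤ) - m else if key a = m - j then (m : ℤ) - j - 1 else
      if key a = m - j - 1 then (m : ℤ) - j else key a) → (reflBC (simpleBC ⟨j, by omega⟩)).1 a = c := by
    intro j h a c H
    apply key_injective
    rw [H, simpleBC, dif_pos h]
    simp only [reflBC, Sum.elim_inl, reflM, midS, Equiv.Perm.mul_apply, Equiv.swap_apply_def,
      ← key_injective.eq_iff, key_swap, apply_ite key, key_inl, key_inr]
    push_cast
    split_ifs <;> omega
  have sw' : ∀ (a c : II m), key c = (if key a = -1 then 1 else if key a = 1 then -1 else key a) →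
      (reflBC (simpleBC ⟨m - 1, by omega⟩)).1 a = c := by
    intro a c H
    apply key_injective
    rw [H, simpleBC, dif_neg (by dsimp only; omega)]
    simp only [reflBC, Sum.elim_inr, reflE, Equiv.swap_apply_def,
      ← key_injective.eq_iff, key_swap, apply_ite key, key_inl]
    split_ifs <;> omega
  have ne : ∀ {a b : II m}, key a ≠ key b → a ≠ b := fun h e => h (congrArg key e)
  have ne' : ∀ {a b : II m}, key a + key b ≠ 0 → a ≠ b.swap := fun h e => h (eq_swap_iff.1 e)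
  have A2 : ∀ (j : ℕ) (h : j + 2 < m), Q (.inl ⟨j, by omega⟩) (.inr ⟨j + 2, h⟩) := fun j h h' t => by
    have g1 : (Sum.inl ⟨j, by omega⟩ : II m) ≠ Sum.inr ⟨j + 1, by omega⟩ := Sum.inl_ne_inr
    have g2 : (Sum.inl ⟨j, by omega⟩ : II m) ≠ (Sum.inr ⟨j + 1, by omega⟩ : II m).swap := ne' (by simp)
    have g3 : (Sum.inr ⟨j + 1, by omega⟩ : II m).swap ≠ (Sum.inr ⟨j + 2, h⟩ : II m).swap := by simp
    have g4 : (Sum.inr ⟨j + 1, by omega⟩ : II m).swap ≠ (Sum.inr ⟨j + 2, h⟩ : II m) := by simp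
    have := cm g1 g2 (by simp) _ (pos g4 g3 (by simp)) t (flipM (-1) (Sum.inr ⟨j + 1, by omega⟩ : II m).swap (.inr ⟨j + 2, h⟩) * 1)
    rw [sysC_x, xC, Sum.elim_inl, ← mid_eq_xM he g4 g3, commutatorElement_def,
      comm_eq_of (mid_mid_chain ι he g2 g3 g1 h' Sum.inr_ne_inl t 1), mul_one] at this
    exact this
  let a : II m := .inl ⟨m - 2, by omega⟩
  let b : II m := .inr ⟨m - 1, by omega⟩
  have ha : key a = -2 := by simp only [a, key_inl]; omega
  have hb : key b = 1 := by simp only [b, key_inr]; omega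
  have hb' : key b.swap = -1 := by rw [key_swap, hb]
  have g1 : a ≠ b.swap := ne' (by omega)
  have g2 : a ≠ b.swap.swap := ne' (by omega)
  have B2 : ∀ t u, mid ι (-1) a b.swap g2 (t * u) * endC ι a (-(sg (-1) a b * (t * t * u))) ∈ M := fun t u => by
    have := cm (ne (by omega)) g1 (by omega) (.inr b.swap) ((rootBC_pos_iff _).2 (by
      change key b.swap < 0; omega)) t u
    rwa [sysC_x, xC, Sum.elim_inr, commutatorElement_def, comm_eq_of (mid_endC_chain ι g1 g2 t u)] at this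
  have hsg : sg (-1 : F) a b = -1 := by simp [sg, eta, a, b]
  simp only [hsg, neg_mul, one_mul, neg_neg] at B2
  have short : ∀ (j : ℕ) (h : j + 1 < m), 3 ≤ m → Q (.inl ⟨j, by omega⟩) (.inr ⟨j + 1, h⟩) := fun j h h3 => by
    by_cases hj : j + 2 < m
    · exact mv _ Sum.inl_ne_inr (ne' (by simp)) (sw (j + 1) hj _ _ (by simp; omega))
        (sw (j + 1) hj _ _ (by simp; omega)) (by simp) (by simp) (A2 j hj)
    · obtain ⟨j, rfl⟩ : ∃ k, j = k + 1 := ⟨j - 1, by omega⟩
      exact mv _ Sum.inl_ne_inr (ne' (by simp)) (sw j (by omega) _ _ (by simp))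
        (sw j (by omega) _ _ (by simp; omega)) (by simp) (by simp) (A2 j h)
  have both : Q a b.swap ∧ ∀ t, endC ι a t ∈ M := by
    by_cases h3 : 3 ≤ m
    · have : Q a b.swap := mv _ Sum.inl_ne_inr (ne' (by simp)) (sw' _ _ (by simp [ha]; omega))
        (sw' _ _ (by simp [hb']; omega)) (by simp) (by omega) (short (m - 2) (by omega) h3)
      exact ⟨this, fun t => by simpa using (Subgroup.mul_mem_cancel_left _ (this g2 _)).1 (B2 1 t)⟩
    · have : ∀ t, endC ι a t ∈ M := fun c => by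
        obtain ⟨t, ht, ht'⟩ := hex (by omega) c
        have := mul_mem (Subgroup.inv_mem _ (B2 t t⁻¹)) (B2 (t + c) (t + c)⁻¹)
        rw [mul_inv_cancel₀ ht, mul_inv_cancel₀ ht', mul_inv_cancel_right₀ ht, mul_inv_cancel_right₀ ht',
          endC_add] at this
        simpa [mul_assoc] using this
      exact ⟨fun _ t => by simpa using (Subgroup.mul_mem_cancel_right _ (this _)).1 (B2 1 t), this⟩
  intro i
  by_cases hi : i.val + 1 < m
  · rw [rootBC_simple, simpleBC, dif_pos hi]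
    have : Q (.inl ⟨i, by omega⟩) (.inr ⟨i + 1, hi⟩) := by
      by_cases h3 : 3 ≤ m
      · exact short _ hi h3
      · exact mv _ (ne (by omega)) g2 (sw' _ _ (by simp [ha]; omega)) (sw' _ _ (by simp [hb']; omega))
          (by omega) (by simp) both.1
    exact this (midS i hi).ne_swap
  · have e : (rootC m).s ⟨m - 2, by omega⟩ (.inr a) = (rootC m).simple i := by
      rw [rootBC_simple, simpleBC, dif_neg hi]
      exact congrArg Sum.inr (sw (m - 2) (by omega) _ _ (by simp [ha]; omega))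
    exact e ▸ h2 _ ((rootC m).s_mem_W _) _ ((rootBC_pos_iff _).2 (by change key a < 0; omega))
      (e ▸ (rootC m).pos_simple i) both.2

theorem rootFull_psl {n : ℕ} (hn : 3 ≤ n) : RootFull (pslSys n F) :=
  (rootFull_sl hn).map (QuotientGroup.mk' _) fun _ _ => rfl

theorem rootFull_psp {m : ℕ} (hm : 2 ≤ m) (hex : m = 2 → ∀ c : F, ∃ t, t ≠ 0 ∧ t + c ≠ 0) :
    RootFull (pspSys m F) :=
  ((rootFull_sysC (iota m) hm hex).of_injective _ spToSL_injective spToSL_x).map (QuotientGroup.mk' _)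
    fun _ _ => rfl

end CfsgLib.Fusion
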