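import Mathlib
import Cfsg.Agent.Lib.Core.Cores

/-!
Rigidity of groups of characteristic `p`: an automorphism fixing a Sylow `p`-subgroup `T` elementwise is
conjugation by an element of `Z(T)`; more generally for an automorphism fixing `T` elementwise when a
normal subgroup `Q ≤ T` is self-centralizing.
-/

set_option autoImplicit false

namespace CfsgLib.Fusion

open Cfsg

open scoped IsMulCommutative

/-- A 1-cocycle with values in an abelian normal subgroup of order prime to the index of `T`, trivial on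
`T`, is a coboundary. -/
theorem exists_conj_of_fix {G : Type*} [Group G] [Finite G] {T Q : Subgroup G} [hQ : Q.Normal]
    (hQT : Q ≤ T) (hC : Subgroup.centralizer (Q : Set G) ≤ Q)
    (hco : (Nat.card (Subgroup.centralizer (Q : Set G))).Coprime T.index) (ψ : G →* G)
    (hψ : ∀ x ∈ T, ψ x = x) :
    ∃ z ∈ Subgroup.centralizer (Q : Set G), z ∈ Subgroup.centralizer (T : Set G) ∧
      ∀ g, ψ g = z * g * z⁻¹ := by
  classical
  set Z := Subgroup.centralizer (Q : Set G) with hZ
  have hZn : Z.Normal := inferInstance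
  have hcomm : IsMulCommutative Z := IsMulCommutative.of_comm fun a b =>
    Subtype.ext (Subgroup.mem_centralizer_iff.1 b.2 a (hC a.2))
  have hd : ∀ g, ψ g * g⁻¹ ∈ Z := by
    intro g
    rw [hZ, Subgroup.mem_centralizer_iff]
    intro q hq
    have h1 : g⁻¹ * q * g ∈ Q := by simpa using hQ.conj_mem q hq g⁻¹
    have h2 := hψ _ (hQT h1)
    rw [map_mul, map_mul, map_inv, hψ q (hQT hq)] at h2
    calc q * (ψ g * g⁻¹) = ψ g * ((ψ g)⁻¹ * q * ψ g) * g⁻¹ := by group
      _ = _ := by rw [h2]; group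
  let d : G → Z := fun g => ⟨_, hd g⟩
  let act : G → Z →* Z := fun g => (MulAut.conjNormal g : MulAut Z).toMonoidHom
  have hact : ∀ g (z : Z), (act g z : G) = g * z * g⁻¹ := fun g z => MulAut.conjNormal_apply g z
  have hcoc : ∀ g h, d (g * h) = d g * act g (d h) := by
    intro g h
    apply Subtype.ext
    rw [Subgroup.coe_mul, hact]
    simp [d, mul_assoc]
  have hdT : ∀ g, ∀ t ∈ T, d (g * t) = d g := by
    intro g t ht
    apply Subtype.ext
    simp [d, hψ t ht, mul_assoc]
  let d' : G ⧸ T → Z := fun x => Quotient.liftOn' x d (fun a b hab => by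
    rw [QuotientGroup.leftRel_apply] at hab
    rw [← hdT a _ hab]; simp)
  have hd' : ∀ (g : G) (x : G ⧸ T), d' (g • x) = d g * act g (d' x) := by
    intro g x
    obtain ⟨x, rfl⟩ := QuotientGroup.mk_surjective x
    exact hcoc g x
  have : Fintype (G ⧸ T) := Fintype.ofFinite _
  have hw : ∀ g, ∏ x, d' x = d g ^ T.index * act g (∏ x, d' x) := by
    intro g
    have h1 : ∏ x, d' (g • x) = ∏ x, d' x := Equiv.prod_comp (MulAction.toPerm g) d'
    rw [← h1]
    conv_rhs => rw [h1]
    simp only [hd']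
    rw [Finset.prod_mul_distrib, Finset.prod_const, map_prod, Finset.card_univ, Subgroup.index,
      Nat.card_eq_fintype_card]
  obtain ⟨z, hz⟩ := (powCoprime hco).surjective (∏ x, d' x)
  have hz' : z ^ T.index = ∏ x, d' x := hz
  have key : ∀ g, ψ g = z * g * (z : G)⁻¹ := by
    intro g
    have h1 : d g = z * (act g z)⁻¹ := by
      apply (powCoprime hco).injective
      show d g ^ T.index = (z * (act g z)⁻¹) ^ T.index
      rw [mul_pow, inv_pow, ← map_pow, hz', eq_mul_inv_iff_mul_eq, ← hw]
    have h2 := congrArg Subtype.val h1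
    rw [Subgroup.coe_mul, Subgroup.coe_inv, hact] at h2
    calc ψ g = (ψ g * g⁻¹) * g := by group
      _ = _ := by rw [show ψ g * g⁻¹ = _ from h2]; group
  refine ⟨z, z.2, Subgroup.mem_centralizer_iff.2 fun t ht => ?_, key⟩
  have := key t
  rw [hψ t ht] at this
  conv_lhs => rw [this]
  group

theorem exists_conj_of_fix_sylow {G : Type*} [Group G] [Finite G] {p : ℕ} [Fact p.Prime]
    (hG : Subgroup.centralizer ((pCore p G : Subgroup G) : Set G) ≤ pCore p G) (T : Sylow p G)
    (ψ : G →* G) (hψ : ∀ x ∈ (T : Subgroup G), ψ x = x) :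
    ∃ z ∈ (T : Subgroup G), z ∈ Subgroup.centralizer ((T : Subgroup G) : Set G) ∧
      ∀ g, ψ g = z * g * z⁻¹ := by
  obtain ⟨z, hz, hz2⟩ := exists_conj_of_fix (CfsgLib.Core.pCore_le_sylow T) hG (by
    obtain ⟨k, hk⟩ := ((CfsgLib.Core.isPGroup_pCore p G).to_le hG).exists_card_eq
    rw [hk]
    exact Nat.Coprime.pow_left _ ((Nat.Prime.coprime_iff_not_dvd Fact.out).2 T.not_dvd_index)) ψ hψ
  exact ⟨z, CfsgLib.Core.pCore_le_sylow T (hG hz), hz2⟩

end CfsgLib.Fusion
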