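import Mathlib
import Cfsg.Agent.Lib.Fusion.GroupSimple
import Cfsg.Agent.Lib.LieAll.Core

/-!
Simplicity of the fusion system in the defining characteristic of a twisted group of relative rank at
least two.
-/

set_option autoImplicit false

namespace CfsgLib.Fusion

open Cfsg Cfsg.FusionSystem Subgroup CfsgLib.RGD CfsgLib.Twist CfsgLib.LieAll CfsgLib.ChevAut
open scoped commutatorElement

variable {ι κ B : Type} [Fintype κ] [DecidableEq κ] {Φ : RootSys ι κ} {F G : Type*} [Field F] [Group G]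
  {S : StSys Φ F G} {T : Tw S B} {M : Subgroup G} [Finite ι]

theorem tw_mem_P_cases (hM : IsTw T M) {b : B} {g : G} (hg : g ∈ S.P (T.J b)) (hgM : g ∈ M) :
    g ∈ S.B ∨ ∃ b₁ ∈ S.B ⊓ M, ∃ b₂ ∈ S.B ⊓ M, g = b₁ * hM.nb b * b₂ := by
  obtain ⟨u, hu, n, hn, w, hw, ha, u', hu', rfl⟩ := hM.bruhat hgM
  have hu'' := UU_Inv_le_U S w hu'.1
  obtain ⟨v, hv, h⟩ := StSys.exists_mem_cell_of_mem_P hg
  have e := hM.nondeg.cell_unique hw.1 (Φ.WJ_le_W _ hv) ⟨u, S.U_le_B hu.1, n, hn.1, ha, u', S.U_le_B hu'', rfl⟩ h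
  subst e
  rcases T.eq_one_or_sw hw hv with rfl | rfl
  · exact Or.inl (mul_mem (mul_mem (S.U_le_B hu.1) (S.H_le_B (hM.sharp.mem_H n hn.1 ha))) (S.U_le_B hu''))
  · refine Or.inr ⟨u, ⟨S.U_le_B hu.1, hM.U_le hu⟩, (hM.nb b)⁻¹ * n * u', ⟨mul_mem (S.H_le_B
      (hM.sharp.inv_mul_mem_H (hM.nb_mem_N b) hn.1 hw.1 (hM.acts_nb b) ha)) (S.U_le_B hu''),
      mul_mem (mul_mem (Subgroup.inv_mem _ (hM.nb_mem b)) hn.2) (hM.U_le ⟨hu'', hu'.2⟩)⟩, by group⟩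

/-- Conjugation by an element of `N` along positive roots. -/
theorem tw_move (hM : IsTw T M) {L : Subgroup G} (h1 : ∀ h ∈ S.H ⊓ M, ∀ y ∈ L, h * y * h⁻¹ ∈ L)
    (h2 : ∀ b, ∀ y ∈ L, y ∈ S.UJ (T.J b) → hM.nb b * y * (hM.nb b)⁻¹ ∈ L) {w : Equiv.Perm ι} (hw : w ∈ T.W1) :
    ∀ n ∈ S.N ⊓ M, S.Acts n w → ∀ y ∈ L, y ∈ S.UU {r | Φ.Pos r ∧ Φ.Pos (w r)} → n * y * n⁻¹ ∈ L := by
  refine T.W1_induction (p := fun w => ∀ n ∈ S.N ⊓ M, S.Acts n w → ∀ y ∈ L,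
    y ∈ S.UU {r | Φ.Pos r ∧ Φ.Pos (w r)} → n * y * n⁻¹ ∈ L) (fun n hn ha y hy _ =>
      h1 n ⟨hM.sharp.mem_H n hn.1 ha, hn.2⟩ y hy) (fun v hv b hb ih n hn ha y hy hy' => ?_) hw
  have hs := T.W1_le_W (T.sw_mem b)
  have key : ∀ r, Φ.Pos r → Φ.Pos ((v * T.sw b) r) → ¬ Φ.InSub (T.J b) r := fun r hr hr' h => by
    have h3 := sw_mem_negJ (T := T) ⟨hr, h⟩
    have h4 := Φ.pos_apply_of_pos_simple hv.1 hb (Φ.pos_neg_iff.2 h3.1) (Φ.inSub_neg_iff.2 h3.2)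
    rw [Φ.apply_neg hv.1, Φ.pos_neg_iff] at h4
    exact Φ.not_neg_of_pos hr' h4
  have := ih (n * (hM.nb b)⁻¹) (mul_mem hn (Subgroup.inv_mem _ ⟨hM.nb_mem_N b, hM.nb_mem b⟩)) (by
      simpa using ha.mul ((hM.acts_nb b).inv hs) (Subgroup.inv_mem _ hs)) _
    (h2 b y hy (S.UU_mono (fun r hr => And.intro hr.1 (key r hr.1 hr.2)) hy'))
    ((hM.acts_nb b).conj_mem_UU (fun r hr => And.intro
      (Φ.pos_apply_of_not_inSub (T.sw_mem_WJ b) hr.1 (key r hr.1 hr.2)) hr.2) hy')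
  simpa [mul_assoc] using this

theorem tw_U_le (hM : IsTw T M) {L : Subgroup G} (h1 : ∀ b, Ub T M b ≤ L)
    (h2 : ∀ b, ∀ y ∈ L, y ∈ S.UJ (T.J b) → hM.nb b * y * (hM.nb b)⁻¹ ∈ L) : S.U ⊓ M ≤ L := by
  have key : ∀ w ∈ T.W1, S.UU (Φ.Inv w) ⊓ T.Fix ≤ L := fun w hw => by
    refine T.W1_induction (p := fun w => S.UU (Φ.Inv w) ⊓ T.Fix ≤ L) (by simp [Φ.Inv_one, S.UU_empty])
      (fun v hv b hb ih g hg => ?_) hw
    obtain ⟨a, ha, c, hc, rfl⟩ := T.exists_mul_Inv_fix hM.sharp hv hb hg.1 hg.2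
    have hn := hM.le_fix (hM.nb_mem b)
    have h3 : (hM.nb b)⁻¹ * c * hM.nb b ∈ S.UU (Φ.Inv v) := conj_mem_UU' (T.W1_le_W (T.sw_mem b))
      (hM.acts_nb b) (by rintro _ ⟨r, hr, rfl⟩; simpa using hr) hc.1
    refine mul_mem (h1 b ⟨ha.1, hM.posJ_le b ha⟩) ?_
    simpa [mul_assoc] using h2 b _ (ih ⟨h3, mul_mem (mul_mem (Subgroup.inv_mem _ hn) hc.2) hn⟩)
      (S.UU_mono (fun r hr => And.intro hr.1 (not_inSub_of_mem_Inv Φ hv.1 hb hr)) h3)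
  have := key _ T.w0_univ_mem
  rw [IsTw.Inv_w0_univ] at this
  exact hM.U_inf ▸ this

variable [Finite F] [Finite G] (p : ℕ) [Fact p.Prime] [CharP F p]

theorem tw_normalizer (hM : IsTw T M) :
    Subgroup.normalizer ((hM.sylow p : Subgroup M) : Set M) = S.B.subgroupOf M := by
  refine le_antisymm (fun g hg => mem_B_of_normalizes hM g.2 fun u hu hu' => S.U_le_B
    ((hM.mem_sylow p).1 (conj_mem_of_mem_normalizer hg (show (⟨u, hu⟩ : M) ∈ (hM.sylow p : Subgroup M) from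
      (hM.mem_sylow p).2 hu')))) fun g hg => mem_normalizer_fintype fun x hx =>
    (hM.mem_sylow p).2 (StSys.B_conj_mem_U hg ((hM.mem_sylow p).1 hx))

theorem tw_parData (hM : IsTw T M) : ParData p (hM.sylow p : Subgroup M)
    (fun b => (S.P (T.J b)).subgroupOf M) fun b => (S.UJ (T.J b)).subgroupOf M := by
  refine ⟨sylIn_top _, fun b x hx => (hM.mem_sylow p).2 (S.UJ_le_U _ hx),
    fun b => tw_normalizer p hM ▸ fun x hx => StSys.B_le_P _ hx,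
    fun b g hg => mem_normalizer_fintype fun x hx => S.P_conj_mem_UJ hg hx, fun b K h1 h2 h3 g hg => ?_,
    fun b D hD hn x hx => ?_⟩
  · rw [tw_normalizer] at h1 h3
    obtain ⟨k, hk, hkB⟩ := SetLike.not_le_iff_exists.1 h3
    obtain ⟨b₁, h₁, b₂, h₂, e⟩ := (tw_mem_P_cases hM (h2 hk) k.2).resolve_left hkB
    have h4 : hM.nM b ∈ K := (Subgroup.mul_mem_cancel_left _ (h1 (show ⟨b₁, h₁.2⟩ ∈ S.B.subgroupOf M from h₁.1))).1
      ((Subgroup.mul_mem_cancel_right _ (h1 (show ⟨b₂, h₂.2⟩ ∈ S.B.subgroupOf M from h₂.1))).1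
        ((Subtype.ext e : k = ⟨b₁, h₁.2⟩ * hM.nM b * ⟨b₂, h₂.2⟩) ▸ hk))
    rcases tw_mem_P_cases hM hg g.2 with h | ⟨b₁, h₁, b₂, h₂, e⟩
    · exact h1 h
    · exact (Subtype.ext e : g = ⟨b₁, h₁.2⟩ * hM.nM b * ⟨b₂, h₂.2⟩) ▸ mul_mem (mul_mem (h1 h₁.1) h4) (h1 h₂.1)
  · have hP := nb_mem_P hM (subset_refl (T.J b))
    obtain ⟨a, ha, c, hc, e⟩ := hM.sharp.exists_rad_mul (T.J b) ((hM.mem_sylow p).1 (hD hx))
    have h1 : hM.nb b * x * (hM.nb b)⁻¹ ∈ S.U :=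
      (hM.mem_sylow p).1 (hD (conj_mem_of_mem_normalizer (hn (show hM.nM b ∈ (S.P _).subgroupOf M from hP)) hx))
    rw [e, show hM.nb b * (a * c) * (hM.nb b)⁻¹ = hM.nb b * a * (hM.nb b)⁻¹ * (hM.nb b * c * (hM.nb b)⁻¹) by
      group, Subgroup.mul_mem_cancel_left _ (S.UJ_le_U _ (S.P_conj_mem_UJ hP ha))] at h1
    have h2 := hM.sharp.eq_one_of_mem_B_V (S.U_le_B h1) (UU_negJ_le_V S _
      ((hM.acts_nb b).conj_mem_UU (fun r hr => sw_mem_negJ hr) hc))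
    rw [mul_inv_eq_one, mul_eq_left] at h2
    change (x : G) ∈ S.UJ _
    rwa [e, h2, mul_one]

theorem tw_Ub_le_pGen (hM : IsTw T M) (b : B) :
    Ub T M b ⊔ Vb T M b ≤ (pGen p ((S.P (T.J b)).subgroupOf M)).map M.subtype := by
  have key : ∀ x : M, (x : G) ∈ S.U → ∃ k, orderOf x = p ^ k := fun x hx =>
    (IsPGroup.iff_orderOf.1 (hM.sylow p).2 ⟨x, (hM.mem_sylow p).2 hx⟩).imp fun k hk => by
      rw [← hk]; exact (orderOf_mk _ _).symm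
  refine sup_le (fun x hx => ⟨⟨x, hx.2⟩, Subgroup.subset_closure ⟨S.LJ_le_P _ (UU_posJ_le_LJ S _ hx.1),
    key _ (UU_posJ_le_U S _ hx.1)⟩, rfl⟩) fun x hx => ⟨⟨x, hx.2⟩, Subgroup.subset_closure
      ⟨S.LJ_le_P _ (UU_negJ_le_LJ S _ hx.1), (key (MulAut.conj (hM.nM b) ⟨x, hx.2⟩) (UU_posJ_le_U S _
        ((hM.acts_nb b).conj_mem_UU (fun r hr => sw_mem_posJ hr) hx.1))).imp fun k hk => by
          rwa [MulEquiv.orderOf_eq] at hk⟩, rfl⟩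

/-- The fusion system in the defining characteristic is simple. -/
theorem tw_simple (hM : Good T M) [Nontrivial B]
    (full : ∀ L : Subgroup G, (∀ x ∈ S.U ⊓ M, ∀ y ∈ S.U ⊓ M, ⁅x, y⁆ ∈ L) →
      (∀ w ∈ T.W1, ∀ n ∈ S.N ⊓ M, S.Acts n w → ∀ y ∈ L, y ∈ S.UU {r | Φ.Pos r ∧ Φ.Pos (w r)} →
        n * y * n⁻¹ ∈ L) → ∀ b, Ub T M b ≤ L)
    (torus : S.H ⊓ M ≤ ⨆ b, S.H ⊓ (Ub T M b ⊔ Vb T M b)) (P : Sylow p M) :
    (groupFusionSystem (P : Subgroup M)).IsSimple p := by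
  have ht := hM.tw
  have hS := hM.nondeg
  have h := tw_parData p ht
  have hB := tw_normalizer p ht
  have hU : ∀ {g : M}, g ∈ (ht.sylow p : Subgroup M) ↔ (g : G) ∈ S.U := ht.mem_sylow p
  have hn : ∀ b, ht.nM b ∈ (S.P (T.J b)).subgroupOf M := fun b => nb_mem_P ht (subset_refl _)
  refine group_simple_sylow h.syl (h.simple (fun H => ?_) (fun D hD hn' => ?_) (fun J h1 h2 => ?_)
    (fun i => exists_ne i) (fun L h1 h2 h3 h4 => ?_) ?_) P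
  · obtain ⟨b⟩ : Nonempty B := inferInstance
    obtain ⟨u, h1, h2, h3⟩ := ht.exists_pos b
    exact h3 (congrArg Subtype.val (H.le (hU.2 (UU_posJ_le_U S _ h2) : (⟨u, h1⟩ : M) ∈ _)))
  · obtain ⟨b⟩ : Nonempty B := inferInstance
    have h1 := le_of_nb_mem ht (D := (Subgroup.normalizer (D : Set M)).map M.subtype)
      (fun g hg => ⟨⟨g, hg.2⟩, hn' b (StSys.B_le_P _ hg.1), rfl⟩) fun b => ⟨_, hn' b (hn b), rfl⟩
    refine eq_bot_iff.2 fun a ha => Subtype.ext (hS.eq_one_of_mem_U_of_mem_H (hU.1 (hD ha))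
      (ht.mem_H_of_core fun m hm => ?_))
    obtain ⟨m, hm', rfl⟩ := h1 hm
    exact S.U_le_B (hU.1 (hD (conj_mem_of_mem_normalizer hm' ha)))
  · obtain ⟨i, hi, j, hj, hA⟩ := hM.conn {i | T.orb i ∈ J}
      (by obtain ⟨b, hb⟩ := h1; obtain ⟨i, rfl⟩ := T.orb_surj b; exact ⟨i, hb⟩)
      (by obtain ⟨b, hb⟩ := h2; obtain ⟨i, rfl⟩ := T.orb_surj b; exact ⟨i, hb⟩)
    refine ⟨_, hi, _, hj, fun H => ?_⟩
    have hne : j ∉ T.J (T.orb i) := fun e => hj (show T.orb j ∈ J from T.mem_J.1 e ▸ hi)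
    have hw := T.sw_mem_WJ (T.orb i)
    have hrad := Stable.posJ_subset (T := T.toSym) (J := T.J (T.orb i)) (fun _ _ e h => e.symm.trans h) hne
    have hpos : ∀ r ∈ T.sw (T.orb i) '' posJ Φ (T.J (T.orb j)), Φ.Pos r ∧ ¬ Φ.InSub (T.J (T.orb i)) r := by
      rintro _ ⟨r, hr, rfl⟩
      exact ⟨Φ.pos_apply_of_not_inSub hw hr.1 (hrad hr).2, fun h => (hrad hr).2 ((Φ.inSub_apply_iff hw).1 h)⟩
    have hz : ∀ y ∈ S.UU (posJ Φ (T.J (T.orb j))), ht.nb (T.orb i) * y * (ht.nb (T.orb i))⁻¹ ∈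
        S.UU (T.sw (T.orb i) '' posJ Φ (T.J (T.orb j))) := fun y hy =>
      (ht.acts_nb _).conj_mem_UU (fun r hr => Set.mem_image_of_mem _ hr) hy
    obtain ⟨y, hy, hy'⟩ := hM.full j
    have h3 : (ht.nb (T.orb i))⁻¹ * y * ht.nb (T.orb i) ∈ S.UJ (T.J (T.orb i)) :=
      conj_mem_UU' (T.W1_le_W (T.sw_mem _)) (ht.acts_nb _) (fun r hr => by
        rw [T.sw_inv]; exact hpos _ ⟨r, hr, rfl⟩) hy.1
    have hnM := ht.nb_mem (T.orb i)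
    obtain ⟨a, ha, c, hc, e⟩ := T.exists_rad_mul_fix hM.sharp (T.orb j) (S.UJ_le_U _ h3)
      (ht.le_fix (mul_mem (mul_mem (Subgroup.inv_mem _ hnM) hy.2) hnM))
    have h4 : ht.nb (T.orb i) * a * (ht.nb (T.orb i))⁻¹ ∈ S.UJ (T.J (T.orb j)) :=
      (conj_mem_of_mem_normalizer (H (hn _)) (show (⟨a, ht.U_le ⟨S.UJ_le_U _ ha.1, ha.2⟩⟩ : M) ∈
        (S.UJ _).subgroupOf M ⊓ (S.UJ _).subgroupOf M from ⟨ha.1, (Subgroup.mul_mem_cancel_right _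
          (S.UU_mono hrad hc.1)).1 (e ▸ h3)⟩)).1
    have h5 := hS.scoef_mul j (S.UJ_le_U _ h4) (S.UU_le_U (fun r hr => (hpos r hr).1) (hz c hc.1))
    rw [show ht.nb (T.orb i) * a * (ht.nb (T.orb i))⁻¹ * (ht.nb (T.orb i) * c * (ht.nb (T.orb i))⁻¹) =
      ht.nb (T.orb i) * (a * c) * (ht.nb (T.orb i))⁻¹ by group, ← e, show ∀ n : G, n * (n⁻¹ * y * n) * n⁻¹ = y
        from fun n => by group] at h5
    have h6 : S.scoef j (ht.nb (T.orb i) * a * (ht.nb (T.orb i))⁻¹) = 0 := by_contra fun h6 =>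
      (simple_mem_of_scoef hS (fun _ h => h.1) h4 h6).2 (Φ.inSub_simple_iff.2 rfl)
    rw [h6, zero_add] at h5
    obtain ⟨r, hr, e⟩ := simple_mem_of_scoef hS (fun r hr => (hpos r hr).1) (hz c hc.1) (h5 ▸ hy')
    have h7 := A_eq_zero_of_fix hne hw rfl (T.neg_sw_simple rfl) fun k hk => by
      rw [← e, ← Equiv.Perm.mul_apply, T.sw_mul_self]
      exact hr.2 k fun e => hne (e.symm.trans hk)
    have h8 := Φ.d_symm i j
    rw [h7, mul_zero] at h8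
    exact hA ((mul_eq_zero.1 h8).resolve_left (Φ.d_pos i).ne')
  · have h5 : ∀ b, ∀ y ∈ L.map M.subtype, y ∈ S.UJ (T.J b) → ht.nb b * y * (ht.nb b)⁻¹ ∈ L.map M.subtype := by
      rintro b _ ⟨y, hy, rfl⟩ hy'
      exact ⟨_, (conj_mem_of_mem_normalizer (h4 b (hn b)) ⟨hy, hy'⟩).1, rfl⟩
    have := tw_U_le ht (full (L.map M.subtype) (fun x hx y hy => ⟨_, h1 (commutator_mem_commutator
      (hU.2 hx.1 : (⟨x, hx.2⟩ : M) ∈ _) (hU.2 hy.1 : (⟨y, hy.2⟩ : M) ∈ _)), rfl⟩) fun w hw =>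
        tw_move ht (fun k hk => ?_) h5 hw) h5
    · exact fun g hg => (mem_map_iff_mem M.subtype_injective).1 (this ⟨hU.1 hg, g.2⟩)
    · rintro _ ⟨y, hy, rfl⟩
      exact ⟨_, conj_mem_of_mem_normalizer (h3 (hB.ge (show (⟨k, hk.2⟩ : M) ∈ S.B.subgroupOf M from
        S.H_le_B hk.1))) hy, rfl⟩
  · rw [hB]
    intro g hg
    obtain ⟨u, hu, k, hk, e⟩ := ht.mem_B hg g.2
    rw [(Subtype.ext e : g = ⟨u, ht.U_le hu⟩ * ⟨k, hk.2⟩)]
    refine mul_mem (mem_sup_left (mem_sup_left (hU.2 hu.1))) (mem_sup_right ?_)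
    refine (mem_map_iff_mem M.subtype_injective).1 ((iSup_le fun b x hx => ?_ :
      _ ≤ Subgroup.map M.subtype _) (torus hk))
    obtain ⟨x, hx', rfl⟩ := tw_Ub_le_pGen p ht b hx.2
    exact ⟨x, mem_iSup_of_mem b ⟨S.H_le_B hx.1, hx'⟩, rfl⟩

end CfsgLib.Fusion
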