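import Mathlib
import Cfsg.Agent.Lib.Fusion.TwistSimple
import Cfsg.Agent.Lib.LieAll.PSU

/-!
Simplicity of the fusion system of the unitary groups in the defining characteristic.
-/

set_option autoImplicit false

namespace CfsgLib.Fusion

open Cfsg Cfsg.FusionSystem Subgroup CfsgLib.RGD CfsgLib.Twist CfsgLib.LieAll CfsgLib.ClSys Matrix
  Matrix.SpecialLinearGroup
open scoped commutatorElement

variable {K : Type*} [Field K] {n k : ℕ}

/-- the inclusion matrix of an injection of indices -/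
def incM (K : Type*) [Field K] (f : Fin k ↪ Fin n) : Matrix (Fin n) (Fin k) K := of fun a i => if a = f i then 1 else 0

theorem incM_mul (f : Fin k ↪ Fin n) : (incM K f)ᵀ * incM K f = 1 := by
  ext i j
  simp [incM, mul_apply, one_apply, eq_comm]

/-- the embedding of `SL k` in `SL n` along an injection of indices -/
def embSL (K : Type*) [Field K] (f : Fin k ↪ Fin n) :
    SpecialLinearGroup (Fin k) K →* SpecialLinearGroup (Fin n) K where
  toFun g := ⟨1 + incM K f * ((g.1 - 1) * (incM K f)ᵀ), by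
    rw [det_one_add_mul_comm, Matrix.mul_assoc, incM_mul, Matrix.mul_one, add_sub_cancel, g.2]⟩
  map_one' := Subtype.ext (by simp)
  map_mul' g h := Subtype.ext (by
    change 1 + incM K f * ((g.1 * h.1 - 1) * (incM K f)ᵀ) =
      (1 + incM K f * ((g.1 - 1) * (incM K f)ᵀ)) * (1 + incM K f * ((h.1 - 1) * (incM K f)ᵀ))
    simp only [Matrix.mul_add, Matrix.add_mul, Matrix.mul_one, Matrix.one_mul, Matrix.mul_assoc]
    rw [← Matrix.mul_assoc (incM K f)ᵀ, incM_mul]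
    simp only [Matrix.mul_sub, Matrix.sub_mul, Matrix.one_mul, Matrix.mul_assoc]
    abel)

theorem embSL_transvection (f : Fin k ↪ Fin n) {i j : Fin k} (h : i ≠ j) (t : K) :
    embSL K f (transvection h t) = transvection (f.injective.ne h) t := by
  refine Subtype.ext ?_
  change 1 + incM K f * ((1 + single i j t - 1) * (incM K f)ᵀ) = 1 + single (f i) (f j) t
  rw [add_sub_cancel_left]
  congr 1
  ext a b
  rw [mul_apply, Finset.sum_eq_single i (fun c _ hc => by simp [mul_apply, hc.symm]) (by simp),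
    mul_apply, Finset.sum_eq_single j (fun c _ hc => by simp [hc.symm]) (by simp)]
  simp only [incM, single_apply, of_apply, transpose_apply, eq_comm, and_self, if_true]
  split_ifs <;> simp_all

/-- a transvection with numeral indices -/
abbrev tvN (k : ℕ) (i j : Fin k) (t : K) (h : i ≠ j := by decide) : SpecialLinearGroup (Fin k) K := transvection h t

theorem tvN_val {k : ℕ} (i j : Fin k) (t : K) (h : i ≠ j) : (tvN k i j t h).1 = 1 + single i j t := rfl

theorem sl4_comm1 (t u v w : K) : ⁅tvN 4 0 1 t * tvN 4 2 3 u, tvN 4 0 2 v * tvN 4 1 3 w⁆ = tvN 4 0 3 (t * w - u * v) := by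
  rw [commutatorElement_def, mul_inv_eq_iff_eq_mul, mul_inv_eq_iff_eq_mul]
  ext i j
  fin_cases i <;> fin_cases j <;> simp [tvN_val, mul_apply, Fin.sum_univ_succ, one_apply, single_apply]
  ring

theorem sl4_comm2 (t u v : K) : ⁅tvN 4 0 1 t * tvN 4 2 3 u, tvN 4 1 2 v⁆ =
    tvN 4 0 2 (t * v) * tvN 4 1 3 (-(u * v)) * tvN 4 0 3 (-(t * u * v)) := by
  rw [commutatorElement_def, mul_inv_eq_iff_eq_mul, mul_inv_eq_iff_eq_mul]
  ext i j
  fin_cases i <;> fin_cases j <;> simp [tvN_val, mul_apply, Fin.sum_univ_succ, one_apply, single_apply] <;> ring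

theorem sl5_comm (t u s : K) : ⁅tvN 5 0 1 t * tvN 5 3 4 u, tvN 5 1 2 1 * tvN 5 2 3 1 * tvN 5 1 3 s⁆ =
    tvN 5 0 2 t * tvN 5 2 4 (-u) * tvN 5 0 4 (-(s * t * u)) * (tvN 5 0 3 (s * t) * tvN 5 1 4 (-((1 + s) * u))) := by
  rw [commutatorElement_def, mul_inv_eq_iff_eq_mul, mul_inv_eq_iff_eq_mul]
  ext i j
  fin_cases i <;> fin_cases j <;> simp [tvN_val, mul_apply, Fin.sum_univ_succ, one_apply, single_apply] <;> ring

theorem sl3_n {t u z w : K} (hz : z ≠ 0) (hw : w ≠ 0) (h : z + w = t * u) :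
    (tvN 3 0 1 (-t / w) * tvN 3 1 2 (-u / z) * tvN 3 0 2 (-1 / z) * (tvN 3 2 1 t * tvN 3 1 0 u * tvN 3 2 0 (-w)) *
      (tvN 3 0 1 (-t / z) * tvN 3 1 2 (-u / w) * tvN 3 0 2 (-1 / z))).1 = !![0, 0, 1 / w; 0, -w / z, 0; z, 0, 0] := by
  ext i j
  fin_cases i <;> fin_cases j <;> simp [tvN_val, mul_apply, Fin.sum_univ_succ, one_apply, single_apply] <;>
    field_simp <;> grind

section Aux

variable {G : Type*} [Group G] {φ : K →+* K} (hφ : ∀ t, φ (φ t) = t) (h1 : ∃ e, φ e ≠ e) {η : K}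
  (hη : η * η = 1) (hη' : φ η = η)
include hφ

theorem su3_h (hN : ∀ μ, φ μ = μ → ∃ t, t * φ t = μ) (θ : SpecialLinearGroup (Fin 3) K →* G) {L : Subgroup G}
    (a1 : ∀ t s, s + φ s = -(t * φ t) → θ (tvN 3 0 1 t * tvN 3 1 2 (φ t) * tvN 3 0 2 s) ∈ L)
    (a2 : ∀ t s, s + φ s = -(t * φ t) → θ (tvN 3 2 1 t * tvN 3 1 0 (φ t) * tvN 3 2 0 s) ∈ L) {c : K} (hc : c ≠ 0) :
    θ ((slSys 3 K).h ⟨(0, 1), by decide⟩ c * (slSys 3 K).h ⟨(1, 2), by decide⟩ (φ c)) ∈ L := by
  have key : ∀ z : K, z ≠ 0 → ∃ g, θ g ∈ L ∧ g.1 = !![0, 0, 1 / φ z; 0, -φ z / z, 0; z, 0, 0] := fun z hz => by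
    have hw : φ z ≠ 0 := (_root_.map_ne_zero φ).2 hz
    obtain ⟨t, ht⟩ := hN (z + φ z) (by rw [map_add, hφ, add_comm])
    refine ⟨_, ?_, sl3_n hz hw ht.symm⟩
    have k1 := a1 (-t / φ z) (-1 / z) (by simp only [map_div₀, map_neg, map_one, hφ]; field_simp; grind)
    have k2 := a1 (-t / z) (-1 / z) (by simp only [map_div₀, map_neg, map_one]; field_simp; grind)
    simp only [map_div₀, map_neg, hφ] at k1 k2
    rw [map_mul, map_mul θ]
    exact mul_mem (mul_mem k1 (a2 _ _ (by rw [map_neg, hφ]; grind))) k2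
  have hc' : φ c ≠ 0 := (_root_.map_ne_zero φ).2 hc
  obtain ⟨g, k1, e⟩ := key 1 one_ne_zero
  obtain ⟨g', k2, e'⟩ := key _ hc'
  rw [show (slSys 3 K).h ⟨(0, 1), by decide⟩ c * (slSys 3 K).h ⟨(1, 2), by decide⟩ (φ c) = g * g'⁻¹ from ?_,
    map_mul, map_inv]
  · exact mul_mem k1 (Subgroup.inv_mem _ k2)
  rw [eq_mul_inv_iff_mul_eq, slSys_h _ hc, slSys_h _ hc']
  ext i j
  fin_cases i <;> fin_cases j <;> simp [diag2n_coe, e, e', hφ, mul_apply, diagonal_apply] <;>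
    field_simp

include h1 hη hη'

theorem exists_twisted_trace : (∃ u, u ≠ 0 ∧ η * φ u = u) ∧ ∀ s, η * φ s = s → ∃ v, v + η * φ v = s := by
  obtain ⟨e, he⟩ : ∃ e, e + η * φ e ≠ 0 := by
    by_contra h
    push Not at h
    obtain ⟨e, he⟩ := h1
    have h2 := h 1
    rw [map_one] at h2
    exact he (by linear_combination (φ e) * h2 - h e)
  have h2 : η * φ (e + η * φ e) = e + η * φ e := by
    rw [map_add, map_mul, hφ, hη']; linear_combination e * hη
  refine ⟨⟨_, he, h2⟩, fun s hs => ⟨s / (e + η * φ e) * e, ?_⟩⟩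
  have h3 : φ (s / (e + η * φ e)) = s / (e + η * φ e) := by
    rw [map_div₀, ← mul_div_mul_left _ _ (left_ne_zero_of_mul_eq_one hη), hs, h2]
  rw [map_mul, h3]
  field_simp

theorem su4_aux (θ : SpecialLinearGroup (Fin 4) K →* G) {U L : Subgroup G} (hL : ∀ x ∈ U, ∀ y ∈ U, ⁅x, y⁆ ∈ L)
    (a1 : ∀ t, θ (tvN 4 0 1 t * tvN 4 2 3 (φ t)) ∈ U) (a2 : ∀ v, θ (tvN 4 0 2 v * tvN 4 1 3 (-η * φ v)) ∈ U)
    (a3 : ∀ u, η * φ u = u → θ (tvN 4 1 2 u) ∈ U) :
    (∀ s, η * φ s = s → θ (tvN 4 0 3 s) ∈ L) ∧ ∀ v, θ (tvN 4 0 2 v * tvN 4 1 3 (-η * φ v)) ∈ L := by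
  obtain ⟨⟨u, hu, hu'⟩, h2⟩ := exists_twisted_trace hφ h1 hη hη'
  have k1 : ∀ s, η * φ s = s → θ (tvN 4 0 3 s) ∈ L := fun s hs => by
    obtain ⟨v, hv⟩ := h2 (-s) (by rw [map_neg, mul_neg, hs])
    have := hL _ (a1 1) _ (a2 v)
    rwa [← map_commutatorElement, sl4_comm1, map_one, show 1 * (-η * φ v) - 1 * v = s by
      linear_combination -hv] at this
  refine ⟨k1, fun v => ?_⟩
  have := hL _ (a1 (v / u)) _ (a3 u hu')
  rw [← map_commutatorElement, sl4_comm2, map_mul, Subgroup.mul_mem_cancel_right _ (k1 _ (by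
    simp only [map_neg, map_mul, hφ]; linear_combination (-(v / u * φ (v / u))) * hu')), div_mul_cancel₀ _ hu] at this
  convert this using 4
  rw [← div_mul_cancel₀ v hu, map_mul, div_mul_cancel₀ _ hu]
  linear_combination (-φ (v / u)) * hu'

end Aux

/-- the embedding of `SL k` in `PSL n` along an injection of indices -/
def embPSL (K : Type*) [Field K] (f : Fin k ↪ Fin n) : SpecialLinearGroup (Fin k) K →*
    SpecialLinearGroup (Fin n) K ⧸ Subgroup.center (SpecialLinearGroup (Fin n) K) :=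
  (QuotientGroup.mk' _).comp (embSL K f)

theorem embPSL_tv (f : Fin k ↪ Fin n) (a b : Fin k) (t : K) (h : a ≠ b) :
    embPSL K f (tvN k a b t h) = (qSys (slSys n K)).x ⟨(f a, f b), f.injective.ne h⟩ t :=
  congrArg QuotientGroup.mk (embSL_transvection f h t)

theorem embPSL_h (f : Fin k ↪ Fin n) (a b : Fin k) (c : K) (h : a ≠ b) :
    embPSL K f ((slSys k K).h ⟨(a, b), h⟩ c) = (qSys (slSys n K)).h ⟨(f a, f b), f.injective.ne h⟩ c := by
  have h1 := fun t : K => embPSL_tv f a b t h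
  have h2 := fun t : K => embPSL_tv f b a t h.symm
  simp only [StSys.h, StSys.n, map_mul]
  exact congrArg₂ (· * ·) (congrArg₂ (· * ·) (congrArg₂ (· * ·) (h1 _) (h2 _)) (h1 _))
    (congrArg₂ (· * ·) (congrArg₂ (· * ·) (h1 _) (h2 _)) (h1 _))

theorem tw_back {ι κ B : Type} [Fintype κ] [DecidableEq κ] {Φ : RootSys ι κ} {F G : Type*} [Field F] [Group G]
    {S : StSys Φ F G} {T : Tw S B} {M L : Subgroup G} [Finite ι] (hM : IsTw T M)
    (h : ∀ w ∈ T.W1, ∀ n ∈ S.N ⊓ M, S.Acts n w → ∀ y ∈ L, y ∈ S.UU {r | Φ.Pos r ∧ Φ.Pos (w r)} →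
      n * y * n⁻¹ ∈ L) {w : Equiv.Perm ι} (hw : w ∈ T.W1) {g : G} (hg : g ∈ S.UU {r | Φ.Pos r ∧ Φ.Pos (w r)})
    (H : ∀ n ∈ M, ∀ l : ι → F, (∀ s t, n * S.x s t * n⁻¹ = S.x (w s) (l s * t)) → n * g * n⁻¹ ∈ L) : g ∈ L := by
  obtain ⟨n, h1, h2, h3⟩ := hM.exists_acts hw
  have := h _ (Subgroup.inv_mem _ hw) _ (Subgroup.inv_mem _ ⟨h1, h2⟩) (h3.inv hw.1) _
    (h3.elim fun l hl => H n h2 l hl.2) (h3.conj_mem_UU (fun r hr => And.intro hr.2 (by simpa using hr.1)) hg)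
  simpa [mul_assoc] using this

section SU

variable [Finite K] {φ : K →+* K}

theorem su_σ {a b c d : Fin n} {h : a ≠ b} {h' : c ≠ d} (hc : c.val + b.val + 1 = n) (hd : d.val + a.val + 1 = n)
    {e : K} {m : ℕ} (hm : m % 2 = (a.val + b.val + 1) % 2) (he : e = (-1) ^ m) (t : K) :
    (suTw n φ).σ ((qSys (slSys n K)).x ⟨(a, b), h⟩ t) = (qSys (slSys n K)).x ⟨(c, d), h'⟩ (e * φ t) := by
  obtain rfl : c = b.rev := Fin.ext (by simp; omega)
  obtain rfl : d = a.rev := Fin.ext (by simp; omega)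
  rw [he, neg_one_pow_eq_pow_mod_two, hm, ← neg_one_pow_eq_pow_mod_two, pow_succ, mul_neg_one, add_comm]
  exact congrArg QuotientGroup.mk (suAut_x φ ⟨(a, b), h⟩ t)

theorem su_perm_mem {π : Equiv.Perm (Fin n)} (h : ∀ a, π a.rev = (π a).rev) : permAHom n π ∈ (suTw n φ).W1 :=
  ⟨rootA_W ▸ ⟨π, rfl⟩, mul_inv_eq_iff_eq_mul.2 (Equiv.ext fun _ => Subtype.ext (Prod.ext (h _).symm (h _).symm))⟩

omit [Finite K] in
theorem psl_commute {a b c d : Fin n} (h : a ≠ b) (h' : c ≠ d) (h1 : b ≠ c) (h2 : d ≠ a) (t u : K) :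
    Commute ((qSys (slSys n K)).x ⟨(a, b), h⟩ t) ((qSys (slSys n K)).x ⟨(c, d), h'⟩ u) :=
  (commute_transvection h h' h1 h2 t u).map (QuotientGroup.mk' _)

variable (hφ : ∀ t, φ (φ t) = t) (h1 : ∃ e, φ e ≠ e)
include hφ h1

theorem su_pair_mem (hn : 2 ≤ n) {a b c d : Fin n} (h : a < b) (h' : c < d) (hc : c.val + b.val + 1 = n)
    (hd : d.val + a.val + 1 = n) (hbc : b ≠ c) (hda : d ≠ a) {e : K} {m : ℕ} (hm : m % 2 = (a.val + b.val + 1) % 2)
    (he : e = (-1) ^ m) (t : K) :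
    (qSys (slSys n K)).x ⟨(a, b), h.ne⟩ t * (qSys (slSys n K)).x ⟨(c, d), h'.ne⟩ (e * φ t) ∈
      (qSys (slSys n K)).U ⊓ qFix (suAut n φ) := by
  have hU := mul_mem ((qSys (slSys n K)).x_mem_U (r := ⟨(a, b), h.ne⟩) (rootA_pos_iff.2 h) t)
    ((qSys (slSys n K)).x_mem_U (r := ⟨(c, d), h'.ne⟩) (rootA_pos_iff.2 h') (e * φ t))
  refine ⟨hU, (good_su hφ h1 hn).tw.U_le ⟨hU, StSys.U_le_grp _ hU, ?_⟩⟩
  rw [(suTw n φ).σ_mul _ (StSys.x_mem_grp _ _ _) _ (StSys.x_mem_grp _ _ _), su_σ hc hd hm he,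
    su_σ (h' := h.ne) (m := m) (by omega) (by omega) (by omega) he, (psl_commute _ _ hbc hda _ _).eq, map_mul, hφ, he, map_pow,
    map_neg, map_one, ← mul_assoc, ← mul_pow, neg_one_mul, neg_neg, one_pow, one_mul]

theorem su4_mem {L : Subgroup (SpecialLinearGroup (Fin n) K ⧸ Subgroup.center (SpecialLinearGroup (Fin n) K))}
    (hL : ∀ x ∈ (qSys (slSys n K)).U ⊓ qFix (suAut n φ), ∀ y ∈ (qSys (slSys n K)).U ⊓ qFix (suAut n φ), ⁅x, y⁆ ∈ L)
    {a b c d : Fin n} (hb : b.val = a + 1) (hc : c.val + a + 2 = n) (hd : d.val + a + 1 = n) (hbc : b.val < c)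
    {h : a ≠ d} {h' : a ≠ c} {h'' : b ≠ d} :
    (∀ s, (qSys (slSys n K)).x ⟨(a, d), h⟩ s ∈ (suTw n φ).Fix → (qSys (slSys n K)).x ⟨(a, d), h⟩ s ∈ L) ∧
    ∀ t u, (qSys (slSys n K)).x ⟨(a, c), h'⟩ t * (qSys (slSys n K)).x ⟨(b, d), h''⟩ u ∈ (suTw n φ).Fix →
      (qSys (slSys n K)).x ⟨(a, c), h'⟩ t * (qSys (slSys n K)).x ⟨(b, d), h''⟩ u ∈ L := by
  have hn : 2 ≤ n := by omega
  have hS := sharp_psl (n := n) (K := K)
  let f : Fin 4 ↪ Fin n := ⟨![a, b, c, d], fun i j e => by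
    fin_cases i <;> fin_cases j <;> simp [Fin.ext_iff] at e ⊢ <;> omega⟩
  have he : -(-1 : K) ^ n = (-1) ^ (n + 1) := by ring
  obtain ⟨k1, k2⟩ := su4_aux hφ h1 (η := (-1) ^ n) (by rw [← mul_pow]; simp) (by simp) (embPSL K f) hL
    (fun t => by
      rw [map_mul, embPSL_tv, embPSL_tv, ← one_mul (φ t)]
      exact su_pair_mem hφ h1 hn (a := a) (b := b) (c := c) (d := d) (Fin.lt_def.2 (by omega))
        (Fin.lt_def.2 (by omega)) (by omega) hd (Fin.ne_of_lt hbc) h.symm (m := 0) (by omega) (by simp) t)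
    (fun t => by
      rw [map_mul, embPSL_tv, embPSL_tv]
      exact su_pair_mem hφ h1 hn (a := a) (b := c) (c := b) (d := d) (Fin.lt_def.2 (by omega))
        (Fin.lt_def.2 (by omega)) (by omega) hd (Fin.ne_of_gt hbc) h.symm (by omega) he t)
    fun u hu => by
      rw [embPSL_tv]
      have hU := (qSys (slSys n K)).x_mem_U (r := ⟨(b, c), Fin.ne_of_lt hbc⟩) (rootA_pos_iff.2 hbc) u
      exact ⟨hU, (good_su hφ h1 hn).tw.U_le ⟨hU, StSys.U_le_grp _ hU, (su_σ (a := b) (b := c)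
        (h' := Fin.ne_of_lt hbc) (m := n) (by omega) (by omega) (by omega) rfl u).trans (by rw [hu]; rfl)⟩⟩
  simp only [map_mul, embPSL_tv] at k1 k2
  refine ⟨fun s hs => k1 s ?_, fun t u hs => ?_⟩
  · have := ((suTw n φ).mem_Fix.1 hs).2
    rw [su_σ (a := a) (b := d) (h' := h) (by omega) hd (m := n) (by omega) rfl s] at this
    exact hS.x_inj _ this
  have := ((suTw n φ).mem_Fix.1 hs).2
  rw [(suTw n φ).σ_mul _ (StSys.x_mem_grp _ _ _) _ (StSys.x_mem_grp _ _ _),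
    su_σ (a := a) (b := c) (h' := h'') (by omega) hd (by omega) he,
    su_σ (a := b) (b := d) (h' := h') (by omega) (by omega) (by omega) he,
    (psl_commute _ _ h.symm (Fin.ne_of_gt hbc) _ _).eq] at this
  rw [← (hS.x2_inj (by simp [Fin.ext_iff]; omega) this).2]
  exact k2 t

theorem su5_mem {L : Subgroup (SpecialLinearGroup (Fin n) K ⧸ Subgroup.center (SpecialLinearGroup (Fin n) K))}
    (hL : ∀ x ∈ (qSys (slSys n K)).U ⊓ qFix (suAut n φ), ∀ y ∈ (qSys (slSys n K)).U ⊓ qFix (suAut n φ), ⁅x, y⁆ ∈ L)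
    {a b m c d : Fin n} (hn : 2 * a.val + 5 = n) (hb : b.val = a + 1) (hm : m.val = a + 2) (hc : c.val = a + 3)
    (hd : d.val = a + 4) {h : a ≠ m} {h' : m ≠ d} {h'' : a ≠ d} {t u s : K}
    (hy : (qSys (slSys n K)).x ⟨(a, m), h⟩ t * (qSys (slSys n K)).x ⟨(m, d), h'⟩ u *
      (qSys (slSys n K)).x ⟨(a, d), h''⟩ s ∈ (suTw n φ).Fix) :
    (qSys (slSys n K)).x ⟨(a, m), h⟩ t * (qSys (slSys n K)).x ⟨(m, d), h'⟩ u *
      (qSys (slSys n K)).x ⟨(a, d), h''⟩ s ∈ L := by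
  have hn' : 2 ≤ n := by omega
  have hS := sharp_psl (n := n) (K := K)
  have ht := (good_su hφ h1 hn').tw
  have lt : ∀ {i j : Fin n}, i.val < j.val → i < j := Fin.lt_def.2
  let f : Fin 5 ↪ Fin n := ⟨![a, b, m, c, d], fun i j e => by
    fin_cases i <;> fin_cases j <;> simp [Fin.ext_iff] at e ⊢ <;> omega⟩
  obtain ⟨k1, k2⟩ := su4_mem hφ h1 hL hb (by omega) (by omega) (c := c) (d := d) (by omega) (h := h'')
    (h' := (lt (by omega)).ne) (h'' := (lt (by omega)).ne)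
  obtain ⟨s₀, hs₀⟩ := exists_trace_eq hφ h1 (μ := -(1 * φ 1)) (by simp)
  have hbm : b < m := lt (by omega)
  have hmc : m < c := lt (by omega)
  have a1 := su_pair_mem hφ h1 hn' (a := a) (b := b) (c := c) (d := d) (lt (by omega)) (lt (by omega)) (by omega)
    (by omega) (hbm.trans hmc).ne h''.symm (m := 0) (by omega) (pow_zero _).symm t
  have a2 := (a2Rel_psl hbm.ne hmc.ne (hbm.trans hmc).ne).fix (T := suTw n φ) (fun t => by
      rw [su_σ (h' := hmc.ne) (m := 0) (by omega) (by omega) (by omega) (pow_zero _).symm, one_mul])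
    (fun t => by rw [su_σ (h' := hbm.ne) (m := 0) (by omega) (by omega) (by omega) (pow_zero _).symm, one_mul])
    hφ hs₀
  have a3 := su_pair_mem hφ h1 hn' (a := a) (b := c) (c := b) (d := d) (lt (by omega)) (lt (by omega)) (by omega)
    (by omega) (hbm.trans hmc).ne' h''.symm (m := 0) (by omega) (pow_zero _).symm (s₀ * t)
  have a4 := mul_mem (mul_mem ((qSys (slSys n K)).x_mem_U (r := ⟨(b, m), hbm.ne⟩) (rootA_pos_iff.2 hbm) 1)
    ((qSys (slSys n K)).x_mem_U (r := ⟨(m, c), hmc.ne⟩) (rootA_pos_iff.2 hmc) (φ 1)))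
    ((qSys (slSys n K)).x_mem_U (r := ⟨(b, c), (hbm.trans hmc).ne⟩) (rootA_pos_iff.2 (hbm.trans hmc)) s₀)
  have a5 := ht.U_le ⟨a4, a2⟩
  have e := congrArg (embPSL K f) (sl5_comm t (φ t) s₀)
  simp only [map_commutatorElement, map_mul, embPSL_tv] at e
  rw [map_one, mul_one] at hs₀
  rw [one_mul] at a1
  rw [map_one] at a4 a5
  rw [show 1 * φ (s₀ * t) = -((1 + s₀) * φ t) by rw [map_mul]; linear_combination φ t * hs₀] at a3
  have a6 := hL _ a1 _ ⟨a4, a5⟩
  have a7 := ht.le_fix (mul_mem (mul_mem (mul_mem a1.2 a5) (Subgroup.inv_mem _ a1.2)) (Subgroup.inv_mem _ a5))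
  replace a6 := (Subgroup.mul_mem_cancel_right _ (k2 _ _ (ht.le_fix a3.2))).1 (e.subst a6)
  replace a7 := (Subgroup.mul_mem_cancel_right _ (ht.le_fix a3.2)).1 (e.subst a7)
  have := ((suTw n φ).mem_Fix.1 hy).2
  rw [(suTw n φ).σ_mul3 (StSys.x_mem_grp _ _ _) (StSys.x_mem_grp _ _ _) (StSys.x_mem_grp _ _ _),
    su_σ (a := a) (b := m) (h' := h') (m := 1) (by omega) (by omega) (by omega) rfl,
    su_σ (a := m) (b := d) (h' := h) (m := 1) (by omega) (by omega) (by omega) rfl,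
    su_σ (a := a) (b := d) (h' := h'') (m := 1) (by omega) (by omega) (by omega) rfl,
    (a2Rel_psl h h' h'').comm, mul_assoc, ← StSys.x_add] at this
  obtain rfl := (x3_inj hS (by simp only [List.forall_mem_cons, rootA_pos_iff, Fin.lt_def]; simp; omega)
    (by simp [Fin.ext_iff]; omega) this).2.1
  rw [pow_one, neg_one_mul, ← add_sub_cancel (-(s₀ * t * φ t)) s, StSys.x_add, ← mul_assoc] at hy ⊢
  exact mul_mem a6 (k1 _ ((Subgroup.mul_mem_cancel_left _ a7).1 hy))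

omit [Finite K] hφ h1 in
theorem permAHom_eq {π : Equiv.Perm (Fin n)} {r s : OffD n} (h : (π r.1.1).val = s.1.1.val)
    (h' : (π r.1.2).val = s.1.2.val) : permAHom n π r = s := Subtype.ext (Prod.ext (Fin.ext h) (Fin.ext h'))

omit [Finite K] hφ h1 in
theorem symA_cases (b : Quotient (Equiv.Perm.SameCycle.setoid (Fin.revPerm : Equiv.Perm (Fin (n - 1))))) :
    ∃ i, (symA n).orb i = b ∧ 2 * i.val + 2 ≤ n := by
  obtain ⟨i, rfl⟩ := (symA n).orb_surj b
  by_cases h : 2 * i.val + 2 ≤ n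
  · exact ⟨i, rfl, h⟩
  · exact ⟨i.rev, (symA n).orb_π i, by simp; omega⟩

omit [Finite K] hφ h1 in
theorem symA_J_single {i : Fin (n - 1)} (h : i.rev = i) : (symA n).J ((symA n).orb i) = {i} :=
  Set.ext fun j => by rw [mem_J_symA, h, or_self, Set.mem_singleton_iff]

theorem su_full (hn : 4 ≤ n)
    (L : Subgroup (SpecialLinearGroup (Fin n) K ⧸ Subgroup.center (SpecialLinearGroup (Fin n) K)))
    (hL : ∀ x ∈ (qSys (slSys n K)).U ⊓ qFix (suAut n φ), ∀ y ∈ (qSys (slSys n K)).U ⊓ qFix (suAut n φ), ⁅x, y⁆ ∈ L)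
    (hw : ∀ w ∈ (suTw n φ).W1, ∀ g ∈ (qSys (slSys n K)).N ⊓ qFix (suAut n φ), (qSys (slSys n K)).Acts g w →
      ∀ y ∈ L, y ∈ (qSys (slSys n K)).UU {r | (rootA n).Pos r ∧ (rootA n).Pos (w r)} → g * y * g⁻¹ ∈ L) (b) :
    Ub (suTw n φ) (qFix (suAut n φ)) b ≤ L := by
  have hS := sharp_psl (n := n) (K := K)
  have ht := (good_su hφ h1 (by omega : 2 ≤ n)).tw
  obtain ⟨i, rfl, hi⟩ := symA_cases b
  intro g hg
  have hM : ∀ a ∈ qFix (suAut n φ), a * g * a⁻¹ ∈ (suTw n φ).Fix := fun a ha =>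
    ht.le_fix (mul_mem (mul_mem ha hg.2) (Subgroup.inv_mem _ ha))
  have hg' := (Ub_eq ht _).le hg
  by_cases h3 : 2 * i.val + 3 < n
  · let π := Equiv.swap (hiA i) (hiA i).rev
    have hp := simple_symA (i := i) (by omega) (by omega)
    have hJ : ∀ r, r ∈ posJ (rootA n) ((symA n).J ((symA n).orb i)) ↔
        r = (rootA n).simple i ∨ r = (rootA n).simple i.rev := fun r => ⟨fun hr => by
      obtain ⟨k, rfl⟩ := hp r hr
      exact (mem_J_symA.1 ((rootA n).inSub_simple_iff.1 hr.2)).imp (congrArg _) (congrArg _),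
      fun h => h.elim (· ▸ simple_mem_posJ (mem_J_symA.2 (Or.inl rfl)))
        (· ▸ simple_mem_posJ (mem_J_symA.2 (Or.inr rfl)))⟩
    have e1 : permAHom n π ((rootA n).simple i) = ⟨(loA i, loA i.rev), by simp [loA, Fin.ext_iff]; omega⟩ := by
      refine permAHom_eq ?_ ?_ <;> simp only [π, Equiv.swap_apply_def, rootA_simple, simpleA,
        loA, hiA, Fin.ext_iff, Fin.val_rev, apply_ite Fin.val] <;> split_ifs <;> omega
    have e2 : permAHom n π ((rootA n).simple i.rev) = ⟨(hiA i, hiA i.rev), by simp [hiA, Fin.ext_iff]; omega⟩ := by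
      refine permAHom_eq ?_ ?_ <;> simp only [π, Equiv.swap_apply_def, rootA_simple, simpleA,
        loA, hiA, Fin.ext_iff, Fin.val_rev, apply_ite Fin.val] <;> split_ifs <;> omega
    refine tw_back ht hw (su_perm_mem (π := π) fun a => by
      rw [Fin.rev_injective.map_swap, Fin.rev_rev, Equiv.swap_comm]) (StSys.UU_mono _ (fun r hr => And.intro hr.1 ?_) hg.1)
      fun a ha l e => ?_
    · rcases (hJ r).1 hr with rfl | rfl <;> simp only [e1, e2, rootA_pos_iff, loA, hiA, Fin.lt_def, Fin.val_rev] <;>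
        omega
    replace hM := hM a ha
    obtain ⟨t, rfl⟩ := ((suTw n φ).mem_pair (j := i.rev) rfl (Fin.rev_rev i) (orth_of_posJ hp (mem_J_symA.2 (Or.inl rfl))
      (mem_J_symA.2 (Or.inr rfl)) (by simp [Fin.ext_iff]; omega)) hφ hS hJ).1 hg'
    rw [← conj_mul, e, e] at hM ⊢
    erw [e1, e2] at hM ⊢
    exact (su4_mem hφ h1 hL rfl (by simp [loA]; omega) (by simp [loA, hiA]; omega) (by simp [loA, hiA]; omega)
      (h := by simp [loA, hiA, Fin.ext_iff]; omega)).2 _ _ hM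
  let a : Fin n := ⟨i - 1, by omega⟩
  let π := Equiv.swap a (loA i) * Equiv.swap a.rev (loA i).rev
  have hπ : permAHom n π ∈ (suTw n φ).W1 := su_perm_mem fun c => by
    simp only [π, Equiv.Perm.mul_apply, Equiv.swap_apply_def, a, loA, Fin.ext_iff, Fin.val_rev, apply_ite Fin.val]
    split_ifs <;> omega
  by_cases h2 : 2 * i.val + 2 = n
  · have hr : i.rev = i := by simp [Fin.ext_iff]; omega
    have e1 : permAHom n π ((rootA n).simple i) = ⟨(a, a.rev), by simp [a, Fin.ext_iff]; omega⟩ := by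
      refine permAHom_eq ?_ ?_ <;> simp only [π, a, Equiv.Perm.mul_apply, Equiv.swap_apply_def, rootA_simple, simpleA,
      loA, hiA, Fin.ext_iff, Fin.val_rev, apply_ite Fin.val] <;> split_ifs <;> omega
    erw [symA_J_single hr] at hg'
    obtain ⟨t, rfl⟩ := ((suTw n φ).mem_single hS hr).1 hg'
    have e2 : (rootA n).Pos (permAHom n π ((rootA n).simple i)) := by
      simp only [e1, rootA_pos_iff, a, Fin.lt_def, Fin.val_rev]; omega
    refine tw_back ht hw hπ ?_ fun c hc l e => ?_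
    · exact StSys.x_mem_UU _ (Set.mem_ofPred.2 ⟨(rootA n).pos_simple i, e2⟩) _
    replace hM := hM c hc
    rw [e, e1] at hM ⊢
    exact (su4_mem hφ h1 hL (b := loA i) (c := hiA i) (by simp [a, loA]; omega) (by simp [a, hiA]; omega)
      (by simp [a]; omega) (by simp [loA, hiA]) (h' := by simp [a, hiA, Fin.ext_iff])
      (h'' := by simp [a, loA, Fin.ext_iff]; omega)).1 _ hM
  have h4 : 2 * i.val + 3 = n := by omega
  have e1 : permAHom n π ((rootA n).simple i) = ⟨(a, hiA i), by simp [a, hiA, Fin.ext_iff]⟩ := by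
    refine permAHom_eq ?_ ?_ <;> simp only [π, a, Equiv.Perm.mul_apply, Equiv.swap_apply_def, rootA_simple, simpleA,
      loA, hiA, Fin.ext_iff, Fin.val_rev, apply_ite Fin.val] <;> split_ifs <;> omega
  have e2 : permAHom n π ((rootA n).simple i.rev) = ⟨(hiA i, a.rev), by simp [a, hiA, Fin.ext_iff]; omega⟩ := by
    refine permAHom_eq ?_ ?_ <;> simp only [π, a, Equiv.Perm.mul_apply, Equiv.swap_apply_def, rootA_simple, simpleA,
      loA, hiA, Fin.ext_iff, Fin.val_rev, apply_ite Fin.val] <;> split_ifs <;> omega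
  have e3 : permAHom n π ⟨(loA i, hiA i.rev), lo_ne h4⟩ = ⟨(a, a.rev), by simp [a, Fin.ext_iff]; omega⟩ := by
    refine permAHom_eq ?_ ?_ <;> simp only [π, a, Equiv.Perm.mul_apply, Equiv.swap_apply_def,
      loA, hiA, Fin.ext_iff, Fin.val_rev, apply_ite Fin.val] <;> split_ifs <;> omega
  refine tw_back ht hw hπ (StSys.UU_mono _ (fun r hr => And.intro hr.1 ?_) hg.1) fun c hc l e => ?_
  · have := (a2_mem h4 r).2 hr
    simp only [List.mem_cons, List.not_mem_nil, or_false] at this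
    rcases this with rfl | rfl | rfl <;> simp only [e1, e2, e3] <;>
      simp only [rootA_pos_iff, a, hiA, Fin.lt_def, Fin.val_rev] <;> omega
  replace hM := hM c hc
  obtain ⟨t, s, -, rfl⟩ := ((a2_pos h4).mem (T := suTw n φ) ((suTw n φ).σ_pos i) (su_pos φ i) hφ hS (a2_mem h4)
    (a2_nodup h4)).1 hg'
  rw [← conj_mul, ← conj_mul, e, e, e, e1, e2, e3] at hM ⊢
  exact su5_mem hφ h1 hL (b := loA i) (c := hiA i.rev) (by simp [a]; omega) (by simp [a, loA]; omega)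
    (by simp [a, hiA]; omega) (by simp [a, hiA]; omega) (by simp [a]; omega) hM

theorem su_block_h (hN : ∀ μ, φ μ = μ → ∃ t, t * φ t = μ) (hn : 2 ≤ n) {i : Fin (n - 1)} (hi : 2 * i.val + 3 ≤ n)
    {c : K} (hc : c ≠ 0) :
    (qSys (slSys n K)).h ((rootA n).simple i) c * (qSys (slSys n K)).h ((rootA n).simple i.rev) (φ c) ∈
      Ub (suTw n φ) (qFix (suAut n φ)) ((symA n).orb i) ⊔ Vb (suTw n φ) (qFix (suAut n φ)) ((symA n).orb i) := by
  have hS := sharp_psl (n := n) (K := K)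
  have ht := (good_su hφ h1 hn).tw
  have j1 : i ∈ (symA n).J ((symA n).orb i) := mem_J_symA.2 (Or.inl rfl)
  have j2 : i.rev ∈ (symA n).J ((symA n).orb i) := mem_J_symA.2 (Or.inr rfl)
  have hV : ∀ {g}, g ∈ (qSys (slSys n K)).UU (negJ (rootA n) ((symA n).J ((symA n).orb i))) → g ∈ (suTw n φ).Fix →
      g ∈ Ub (suTw n φ) (qFix (suAut n φ)) ((symA n).orb i) ⊔ Vb (suTw n φ) (qFix (suAut n φ)) ((symA n).orb i) :=
    fun h h' => mem_sup_right ⟨h, ht.V_le ⟨UU_negJ_le_V _ _ h, h'⟩⟩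
  by_cases h3 : 2 * i.val + 3 = n
  · let f : Fin 3 ↪ Fin n := ⟨![loA i, hiA i, hiA i.rev], fun a b e => by
      fin_cases a <;> fin_cases b <;> simp [Fin.ext_iff, loA, hiA] at e ⊢ <;> omega⟩
    have e1 : (rootA n).simple i.rev = ⟨(f 1, f 2), f.injective.ne (by decide)⟩ :=
      Subtype.ext (Prod.ext (lo_rev h3) rfl)
    have e2 : (rootA n).neg ((rootA n).simple i.rev) = ⟨(f 2, f 1), f.injective.ne (by decide)⟩ :=
      Subtype.ext (Prod.ext rfl (lo_rev h3))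
    have := su3_h hφ hN (embPSL K f) (L := Ub (suTw n φ) (qFix (suAut n φ)) ((symA n).orb i) ⊔
      Vb (suTw n φ) (qFix (suAut n φ)) ((symA n).orb i)) (fun t s h => by
        simp only [map_mul, embPSL_tv, ← e1]
        exact mem_sup_left ((Ub_eq ht _).ge (((a2_pos h3).mem (T := suTw n φ) ((suTw n φ).σ_pos i) (su_pos φ i) hφ hS
          (a2_mem h3) (a2_nodup h3)).2 ⟨t, s, h, rfl⟩))) (fun t s h => by
        simp only [map_mul, embPSL_tv, ← e2]
        have hm := (a2_mem h3 ⟨(loA i, hiA i.rev), lo_ne h3⟩).1 (by simp)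
        have hm' : ⟨(hiA i.rev, loA i), (lo_ne h3).symm⟩ ∈ negJ (rootA n) ((symA n).J ((symA n).orb i)) :=
          ⟨(rootA n).neg_neg_iff.2 hm.1, (rootA n).inSub_neg_iff.2 hm.2⟩
        exact hV (mul_mem (mul_mem (StSys.x_mem_UU _ (neg_simple_mem_negJ j2) t)
          (StSys.x_mem_UU _ (neg_simple_mem_negJ j1) (φ t))) (StSys.x_mem_UU _ hm' s))
          ((a2_neg h3).fix (T := suTw n φ) (su_neg φ i) ((suTw n φ).σ_neg i) hφ h)) hc
    rwa [map_mul, embPSL_h, embPSL_h, ← e1] at this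
  have ho : Orth (rootA n) i i.rev := orth_of_posJ (simple_symA h3 (by omega)) j1 j2 (by simp [Fin.ext_iff]; omega)
  have k1 : ∀ t, (qSys (slSys n K)).x ((rootA n).simple i) t * (qSys (slSys n K)).x ((rootA n).simple i.rev) (φ t) ∈
      Ub (suTw n φ) (qFix (suAut n φ)) ((symA n).orb i) ⊔ Vb (suTw n φ) (qFix (suAut n φ)) ((symA n).orb i) :=
    fun t => mem_sup_left ((Ub_eq ht _).ge ⟨mul_mem (StSys.x_mem_UU _ (simple_mem_posJ j1) _)
      (StSys.x_mem_UU _ (simple_mem_posJ j2) _), (suTw n φ).pair_pos_fix (j := i.rev) rfl (Fin.rev_rev i) ho hφ t⟩)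
  have k2 : ∀ c, (qSys (slSys n K)).n ((rootA n).simple i) c * (qSys (slSys n K)).n ((rootA n).simple i.rev) (φ c) ∈
      Ub (suTw n φ) (qFix (suAut n φ)) ((symA n).orb i) ⊔ Vb (suTw n φ) (qFix (suAut n φ)) ((symA n).orb i) :=
    fun c => by
      rw [Orth.n_mul_n (S := qSys (slSys n K)) ho, ← map_inv₀, ← map_neg]
      exact mul_mem (mul_mem (k1 c) (hV (mul_mem (StSys.x_mem_UU _ (neg_simple_mem_negJ j1) _)
        (StSys.x_mem_UU _ (neg_simple_mem_negJ j2) _))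
        ((suTw n φ).pair_neg_fix (j := i.rev) rfl (Fin.rev_rev i) ho hφ _))) (k1 c)
  have := k2 (-1)
  rw [map_neg, map_one] at this
  rw [Orth.h_mul_h (S := qSys (slSys n K)) ho]
  exact mul_mem (k2 c) this

theorem su_single_h (hn : 2 ≤ n) {i : Fin (n - 1)} (hi : i.rev = i) {c : K} (hc : φ c = c) :
    (qSys (slSys n K)).h ((rootA n).simple i) c ∈
      Ub (suTw n φ) (qFix (suAut n φ)) ((symA n).orb i) ⊔ Vb (suTw n φ) (qFix (suAut n φ)) ((symA n).orb i) := by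
  have ht := (good_su hφ h1 hn).tw
  have j1 : i ∈ (symA n).J ((symA n).orb i) := mem_J_symA.2 (Or.inl rfl)
  have k : ∀ c, φ c = c → (qSys (slSys n K)).n ((rootA n).simple i) c ∈
      Ub (suTw n φ) (qFix (suAut n φ)) ((symA n).orb i) ⊔ Vb (suTw n φ) (qFix (suAut n φ)) ((symA n).orb i) :=
    fun c hc => by
      have k1 := mem_sup_left (T := Vb (suTw n φ) (qFix (suAut n φ)) ((symA n).orb i)) ((Ub_eq ht _).ge
        ⟨StSys.x_mem_UU _ (simple_mem_posJ j1) c, (suTw n φ).x_pos_fix hi hc⟩)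
      have k2 := (qSys (slSys n K)).x_mem_UU (neg_simple_mem_negJ (Φ := rootA n) j1) (-c⁻¹)
      exact mul_mem (mul_mem k1 (mem_sup_right ⟨k2, ht.V_le ⟨UU_negJ_le_V _ _ k2, (suTw n φ).x_neg_fix hi
        (show φ _ = _ by rw [map_neg, map_inv₀, hc])⟩⟩)) k1
  exact mul_mem (k c hc) (k _ (by simp))

theorem su_torus (hN : ∀ μ, φ μ = μ → ∃ t, t * φ t = μ) (hn : 2 ≤ n) :
    (qSys (slSys n K)).H ⊓ qFix (suAut n φ) ≤ ⨆ b, (qSys (slSys n K)).H ⊓
      (Ub (suTw n φ) (qFix (suAut n φ)) b ⊔ Vb (suTw n φ) (qFix (suAut n φ)) b) := by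
  classical
  rintro _ ⟨hg, g, hg', rfl⟩
  let η := (slSys_r3 (n := n) (F := K)).hHom (List.finRange (n - 1))
  have hη : ∀ i c, η (Pi.mulSingle i c) = (slSys n K).h ((rootA n).simple i) c := fun i c =>
    Stein.hprod_mulSingle _ (List.nodup_finRange _) (List.mem_finRange i) c
  obtain ⟨t, rfl⟩ : g ∈ η.range := by
    rw [Stein.R3.range_hHom _ (List.nodup_finRange _) List.mem_finRange]
    obtain ⟨h, hh, e⟩ := (map_H (QuotientGroup.mk' _)).ge hg
    have := QuotientGroup.eq.1 e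
    simpa using mul_mem hh (slSys_nondeg.mem_H_of_central ((slSys_grp (n := n) (F := K)).ge (mem_top _)) fun g _ =>
      (mem_center_iff.1 this g).symm)
  have h2 : (suAut n φ).comp η = η.comp (sChar Fin.revPerm φ) := MonoidHom.pi_ext fun i c => by
    rw [MonoidHom.comp_apply, MonoidHom.comp_apply, show sChar Fin.revPerm φ (Pi.mulSingle i c) =
      Pi.mulSingle i.rev (Units.map φ.toMonoidHom c) from funext fun j => Units.ext (by
        rw [sChar_apply]; by_cases h : j = i.rev <;> simp [Pi.mulSingle_apply, Fin.rev_eq_iff, h]), hη, hη]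
    simp only [StSys.h, StSys.n, map_mul, suAut_pos, suAut_neg, map_neg, map_inv₀, map_one]
    rfl
  have h3 : ∀ j, (t j.rev : K) = φ (t j) := (sChar_eq_iff Fin.revPerm φ).1 ((injective_iff_map_eq_one η).2
    (fun t h => funext fun i => slSys_sc _ t (List.nodup_finRange _) h i (List.mem_finRange i))
    ((DFunLike.congr_fun h2 t).symm.trans hg'))
  rw [← Finset.univ_prod_mulSingle t, ← Finset.prod_fiberwise _ (symA n).orb]
  refine mem_comap.1 (Subgroup.prod_mem (Subgroup.comap ((QuotientGroup.mk' _).comp η) _) fun b _ => ?_)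
  refine mem_comap.2 (mem_iSup_of_mem b (mem_inf.2 ⟨?_, ?_⟩))
  · exact (map_H _).le (mem_map_of_mem _ (Stein.hprod_mem_H _ _ _))
  obtain ⟨i, rfl, hi⟩ := symA_cases b
  rw [show Finset.univ.filter (fun j => (symA n).orb j = (symA n).orb i) = {i, i.rev} from
    Finset.ext fun j => by simpa [Sym.mem_J] using mem_J_symA (i := i) (j := j)]
  by_cases h : i.rev = i
  · rw [h, Finset.pair_eq_singleton, Finset.prod_singleton, MonoidHom.comp_apply, hη, map_h]
    exact su_single_h hφ h1 hn h (by rw [← h3, h])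
  · rw [Finset.prod_pair (Ne.symm h), map_mul, MonoidHom.comp_apply, MonoidHom.comp_apply, hη, hη, map_h, map_h, h3]
    exact su_block_h hφ h1 hN hn (by simp [Fin.ext_iff] at h; omega) (t i).ne_zero

end SU

/-- The fusion system of `PSU n q`, `n ≥ 4`, in the defining characteristic is simple. -/
theorem psu_simple [Fintype K] (p q : ℕ) [Fact p.Prime] [CharP K p] (hK : Fintype.card K = q ^ 2) (hn : 4 ≤ n)
    (S : Sylow p (Cfsg.PSU n K q)) : (groupFusionSystem (S : Subgroup (Cfsg.PSU n K q))).IsSimple p := by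
  obtain ⟨e⟩ := nonempty_psu_equiv hK (by omega : 2 ≤ n)
  have hφ := Unitary.conj_conj hK
  have h1 := Unitary.exists_not_fixed hK
  have : Nontrivial (Quotient (Equiv.Perm.SameCycle.setoid (Fin.revPerm : Equiv.Perm (Fin (n - 1))))) :=
    ⟨(symA n).orb ⟨1, by omega⟩, (symA n).orb ⟨0, by omega⟩, fun h => by
      have := mem_J_symA.1 h
      simp [Fin.ext_iff] at this
      omega⟩
  obtain ⟨P⟩ : Nonempty (Sylow p (qFix (suAut n (Unitary.conj hK)))) := inferInstance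
  exact group_simple_of_surjective (sylIn_top P) e.symm.toMonoidHom e.symm.surjective
    (by rw [(MonoidHom.ker_eq_bot_iff _).2 e.symm.injective, inf_bot_eq])
    (tw_simple p (good_su hφ h1 (by omega)) (su_full hφ h1 hn) (su_torus hφ h1 (fun μ h =>
      (Unitary.exists_norm_eq hK h).imp fun t ht => by rwa [pow_succ'] at ht) (by omega)) P) S

end CfsgLib.Fusion
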